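/- Tower C11: job SW1 (sign patterns for `r = 11`). -/
import Cfsg.Agent.H53.C11Spec
import Cfsg.Agent.H95.C6SW

set_option autoImplicit false
set_option linter.unusedSectionVars false
set_option synthInstance.maxSize 4096
set_option maxRecDepth 100000

namespace H18.C11

open Matrix Cfsg.Geo H25 Equiv H53.C6 H95.C6

universe u

def vc (a b c d e : ZMod 11) : ZMod 11 → ZMod 11 := ![0, a, b, c, d, e, -e, -d, -c, -b, -a]

/-- the possible sign patterns -/
def Sh1 (σ : ZMod 11 → ZMod 11) : Prop :=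
  (∀ i, σ i = i) ∨ (∀ i, σ i = -i) ∨ ∃ a : ZMod 11, a * a ^ 9 = 1 ∧
    ((∀ i, a * σ (a ^ 9 * i) = swap 1 (-1) i) ∨ (∀ i, a * σ (-(a ^ 9 * i)) = swap 1 (-1) i) ∨
      ∃ b : ZMod 11, b * b ^ 9 = 1 ∧ ∀ i, a * σ (a ^ 9 * (b * σ (-(b ^ 9 * i)))) = swap 1 (-1) i)

theorem s11 : ∀ a ∈ [1, -1], ∀ b ∈ [2, -2], ∀ c ∈ [3, -3], ∀ d ∈ [4, -4], ∀ e ∈ [5, -5],
    Sh1 (vc a b c d e) := by
  unfold Sh1; decide +kernel

def u3 : (ZMod 11)ˣ := ⟨3, 4, rfl, rfl⟩
def u9 : (ZMod 11)ˣ := ⟨9, 5, rfl, rfl⟩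

variable {F : Type u} [Field F] {ω : Fˣ} {G : Subgroup (GL (ZMod 11) F)}
  {v v' : ZMod 11 → Fˣ} {σ τ : Perm (ZMod 11)}

theorem signs (hb : Base ω G) (nd : ND G) (h : In G v (swap 1 (-1)))
    (h0 : v 0 = 1) (he : ∀ i, v (-i) = v i) (h2 : ∀ i, v i * v i = 1) : v = 1 := by
  have q2 : ∀ a b, v a * v b * (v a * v b) = 1 := fun a b => by rw [mul_mul_mul_comm, h2, h2, one_mul]
  have q : ∀ a b c d, v a * v b * (v c * v d) * (v a * v b * (v c * v d)) = 1 := fun a b c d => by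
    rw [mul_mul_mul_comm, q2, q2, one_mul]
  have q5 : ∀ a b c d e, v a * v b * v c * v d * v e * (v a * v b * v c * v d * v e) = 1 :=
    fun a b c d e => by rw [mul_mul_mul_comm, h2, mul_assoc (v a * v b), q, one_mul]
  have k := fun b => (h.mul (h.cj hb 1 b)).mul (h.mul (h.cj hb 1 b))
  have h10 : v 10 = v 1 := he 1
  have h9 : v 9 = v 2 := he 2
  have h8 : v 8 = v 3 := he 3
  have h7 : v 7 = v 4 := he 4
  have h6 : v 6 = v 5 := he 5
  have f : ∀ {a b}, v a * v 1 * (v b * v 10) = 1 → v a = v b := fun {a b} e => by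
    rw [h10, mul_mul_mul_comm, h2, mul_one] at e
    rw [eq_inv_of_mul_eq_one_left e, ← eq_inv_of_mul_eq_one_left (h2 b)]
  have a : v 2 = v 0 := f (((k 1).sign (by decide) nd (by decide) (i := 2) (j := 5)
    (q ..) (q ..)).trans (q2 5 4))
  have b : v 4 = v 2 := f (((k 3).sign (by decide) nd (by decide) (i := 4) (j := 0)
    (q ..) (q ..)).trans (q2 0 8))
  have c : v 6 = v 4 := f (((k 5).sign (by decide) nd (by decide) (i := 6) (j := 0)
    (q ..) (q ..)).trans (q2 0 6))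
  have d : v 5 = v 3 := f (((k 4).sign (by decide) nd (by decide) (i := 5) (j := 0)
    (q ..) (q ..)).trans (q2 0 7))
  have e : v 0 * v 0 * v 0 * v 0 * v 0 = v 1 * v 7 * v 6 * v 2 * v 8 :=
    (((((h.mul (h.cj hb u3 0)).mul (h.cj hb u9 0)).mul (h.cj hb u9⁻¹ 0)).mul
      (h.cj hb u3⁻¹ 0)).neg hb).sign (by decide) nd (by decide) (i := 0) (j := 1) (q5 ..) (q5 ..)
  rw [h0] at a
  rw [a] at b
  rw [b] at c h7
  rw [c] at h6
  rw [← h6] at d
  rw [← d] at h8
  simp only [h0, h7, c, a, h8, mul_one] at e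
  ext1 i
  fin_cases i
  exacts [h0, e.symm, a, d.symm, b, h6.symm, c, h7, h8, h9.trans a, h10.trans e.symm]

theorem key (hb : Base ω G) (nd : ND G) (h : In G v (swap 1 (-1)))
    (he : ∀ i, v (-i) = v i) : pm (swap 1 (-1)) ∈ G := by
  have hs : ∀ i, v ((swap 1 (-1))⁻¹ i) = v i := fun i => by
    rw [swap_inv, swap_apply_def]
    split_ifs with h1 h2
    exacts [by rw [h1, he], by rw [h2, he], rfl]
  have h2 : dg (v * v) ∈ G := by
    have := h.mul h
    simp only [hs, Equiv.swap_mul_self, In, map_one, mul_one] at this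
    exact this
  have h3 : In G (fun i => (v i / v 0) ^ 11) (swap 1 (-1)) := by
    have := G.mul_mem (hb.sc (v 0 ^ 11)⁻¹) (G.mul_mem (G.pow_mem h2 5) h)
    rw [← dg_const, ← map_pow, ← mul_assoc, ← mul_assoc, ← map_mul, ← map_mul] at this
    unfold In
    convert this using 3
    ext1 i
    simp only [Pi.mul_apply, Pi.pow_apply, div_pow, ← pow_two, ← pow_mul]
    rw [mul_assoc, ← pow_succ, div_eq_inv_mul]
  have := signs hb nd h3 (by simp) (fun i => by rw [he]) fun i => by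
    rw [← mul_pow, div_mul_div_comm, div_pow]
    exact div_eq_one.2 ((nd _ h2 i).trans (nd _ h2 0).symm)
  simpa [In, this] using h3

theorem shape (σ : ZMod 11 → ZMod 11) (h : ∀ i, σ i = i ∨ σ i = -i)
    (he : ∀ i, σ (-i) = -σ i) : Sh1 σ := by
  have e : σ = vc (σ 1) (σ 2) (σ 3) (σ 4) (σ 5) := funext fun i => by
    fin_cases i
    exacts [(h 0).elim id id, rfl, rfl, rfl, rfl, rfl, he 5, he 4, he 3, he 2, he 1]
  rw [e]
  exact s11 _ (by simpa using h 1) _ (by simpa using h 2) _ (by simpa using h 3) _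
    (by simpa using h 4) _ (by simpa using h 5)

theorem jobSW1 : JobSW1.{u} := by
  intro F _ _ r _ ω G hf hb nd v σ h hy c
  obtain rfl := hf.hr
  have e := mul_inv_eq_iff_eq_mul.2 c.symm.eq
  rw [tt, hh, ← conj_mul, pm_conj_dg, ← map_inv, ← map_mul, ← map_mul] at e
  obtain ⟨e1, e2⟩ := dg_pm_inj e
  have he : ∀ i, v (-i) = v i := fun i => by simpa using congrFun e1 i
  have ho : ∀ i, σ (-i) = -σ i := fun i => by
    simpa using (DFunLike.congr_fun (mul_inv_eq_iff_eq_mul.1 e2) i).symm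
  rcases shape σ h ho with k | k | ⟨a, ab, k⟩
  · exact .inl (Equiv.ext k)
  · exact .inr (.inl (Equiv.ext fun i => by simpa using k i))
  have ev : ∀ (a : (ZMod 11)ˣ) i, v ((af a 0)⁻¹ (-i)) = v ((af a 0)⁻¹ i) := fun a i => by simp [he]
  refine .inr (.inr ?_)
  rcases k with k | k | ⟨b, bb, k⟩
  · refine key (v := fun i => v ((af (.mkOfMulEqOne a _ ab) 0)⁻¹ i)) hb nd ?_ (ev _)
    convert In.cj hb hy (.mkOfMulEqOne a _ ab) 0 using 1
    exact Equiv.ext fun i => by simpa [-Perm.coe_inv] using! (k i).symm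
  · refine key (v := fun i => v ((af (.mkOfMulEqOne a _ ab) 0)⁻¹ i)) hb nd ?_ (ev _)
    convert (In.neg hb hy).cj hb (.mkOfMulEqOne a _ ab) 0 using 1
    exact Equiv.ext fun i => by simpa [-Perm.coe_inv] using! (k i).symm
  · have h1 := (In.cj hb hy (.mkOfMulEqOne a _ ab) 0).mul
      ((In.neg hb hy).cj hb (.mkOfMulEqOne b _ bb) 0)
    refine key hb nd (by
      convert h1 using 1
      exact Equiv.ext fun i => by simpa [-Perm.coe_inv] using! (k i).symm) fun i => ?_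
    have hi : ∀ i, σ⁻¹ (-i) = -σ⁻¹ i := fun i => by
      rw [Perm.inv_eq_iff_eq, ho]; simp
    have : ∀ (a : (ZMod 11)ˣ) i, (af a 0 * σ * (af a 0)⁻¹)⁻¹ (-i) = -(af a 0 * σ * (af a 0)⁻¹)⁻¹ i :=
      fun a i => by simp [-Perm.coe_inv, hi]
    simp only [ev, this]

end H18.C11
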