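import Cfsg.Agent.Base

/-! Eigenspaces of elements of prime order that normalise an extraspecial group times scalars. -/

set_option autoImplicit false
set_option linter.unusedSectionVars false

open Module Polynomial

namespace H18.XE

theorem nilp {Γ A : Type*} [Group Γ] [AddCommGroup A] (β : Γ → Γ → A) (s : Γ →* Γ)
    (h1 : ∀ x y z, β x (y * z) = β x y + β x z) (h2 : ∀ x y, β x y = -β y x)
    (h3 : ∀ x y, β (s x) (s y) = β x y) {p : ℕ} (hp : Odd p) (hs : ∀ x, s^[p] x = x)
    (D : Γ → Γ) (hD : ∀ x, D x = x⁻¹ * s x) (H : ∀ x, β (D x) (s (D x)) = 0) (y z : Γ) :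
    β z (D (D (D (D y)))) = 0 := by
  have i0 : ∀ x, β x 1 = 0 := fun x => by simpa using h1 x 1 1
  have i1 : ∀ x y, β x y⁻¹ = -β x y := fun x y =>
    eq_neg_of_add_eq_zero_left (by rw [← h1, inv_mul_cancel, i0])
  have r1 : ∀ x y, β x (D y) = β x (s y) - β x y := fun x y => by rw [hD, h1, i1]; abel
  have l1 : ∀ x y, β (D x) y = β (s x) y - β x y := fun x y => by
    rw [h2, r1, h2 y, h2 y]; abel
  have sD : ∀ x, s (D x) = D (s x) := fun x => by rw [hD, hD, map_mul, map_inv]
  have m1 : ∀ x y z, β z (D (x * y)) = β z (D x) + β z (D y) := fun x y z => by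
    rw [r1, r1, r1, map_mul, h1, h1]; abel
  have lin : ∀ x y, β (D x) (D (s y)) + β (D y) (D (s x)) = 0 := fun x y => by
    have k := H (x * y)
    have k1 := H x
    have k2 := H y
    rw [sD] at k k1 k2
    rw [map_mul, m1, h2, h2 (D _) (D (s y)), m1, m1, h2 _ (D x), h2 _ (D y), h2 _ (D x),
      h2 _ (D y), k1, k2] at k
    rw [← k]; abel
  have key : ∀ y z, β z (s (D (D (D y)))) = -β z (D (D (D y))) := fun y z => by
    have k := lin z (s (s y))
    simp only [r1, l1, h3] at k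
    rw [h2 (s y) z, h2 y z, h2 (s (s y)) z] at k
    simp only [sD, r1]
    rw [← sub_eq_zero, ← neg_eq_zero, ← k]; abel
  have it : ∀ k y, β z (s^[k] (D (D (D y)))) = (-1 : ℤ) ^ k • β z (D (D (D y))) := fun k => by
    induction k with
    | zero => simp
    | succ k ih =>
      intro y
      rw [Function.iterate_succ_apply, sD, sD, sD, ih, ← sD, ← sD, ← sD, key, pow_succ, mul_smul]
      simp
  have k := it p y
  rw [hs, hp.neg_one_pow, neg_smul, one_smul] at k
  rw [r1, key, ← k, sub_self]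

section Lin

variable {K V : Type*} [Field K] [AddCommGroup V] [Module K V] [FiniteDimensional K V]

theorem rank_null (N : End K V) (U : Submodule K V) :
    finrank K U = finrank K (U ⊓ LinearMap.ker N : Submodule K V) + finrank K (U.map N) := by
  rw [← LinearMap.finrank_range_add_finrank_ker (N.domRestrict U), LinearMap.range_domRestrict,
    LinearMap.ker_domRestrict, ← Submodule.finrank_map_subtype_eq, Submodule.map_comap_subtype,
    add_comm]

theorem le_of_maps {N : End K V} {U U' : Submodule K V} (h : ∀ v ∈ U, N v ∈ U')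
    (hi : ∀ v ∈ U, N v = 0 → v = 0) : finrank K U ≤ finrank K U' :=
  LinearMap.finrank_le_finrank_of_injective (f := N.restrict h)
    ((injective_iff_map_eq_zero _).2 fun v e => Subtype.ext (hi v v.2 (congrArg Subtype.val e)))

theorem eig_eq (T : End K V) (a : K) : T.eigenspace a = LinearMap.ker (T - a • 1) :=
  End.eigenspace_def

theorem sum_le (T : End K V) (g : ℕ → K) (s : Finset ℕ) (hg : Set.InjOn g s) :
    ∀ U : Submodule K V, ∑ i ∈ s, finrank K (U ⊓ T.eigenspace (g i) : Submodule K V) ≤ finrank K U := by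
  classical
  induction s using Finset.induction_on with
  | empty => simp
  | insert a s ha ih =>
    intro U
    rw [Finset.sum_insert ha, rank_null (T - g a • 1) U, eig_eq]
    refine Nat.add_le_add_left (le_trans (Finset.sum_le_sum fun i hi => ?_)
      (ih (hg.mono (by simp)) (U.map (T - g a • 1)))) _
    have k : ∀ v ∈ T.eigenspace (g i), (T - g a • 1 : End K V) v = (g i - g a) • v := fun v hv => by
      simp [End.mem_eigenspace_iff.1 hv, sub_smul]
    refine le_of_maps (N := T - g a • 1) (fun v hv => ⟨Submodule.mem_map_of_mem hv.1, ?_⟩)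
      fun v hv e => ?_
    · rw [k v hv.2]; exact Submodule.smul_mem _ _ hv.2
    · rw [k v hv.2] at e
      exact (smul_eq_zero.1 e).resolve_left fun h =>
        ha (hg (by simp [hi]) (by simp) (sub_eq_zero.1 h) ▸ hi)

theorem le_sum (T : End K V) (g : ℕ → K) (s : Finset ℕ) : ∀ U : Submodule K V, (∀ u ∈ U, T u ∈ U) →
    (∀ u ∈ U, aeval T (∏ i ∈ s, (X - C (g i))) u = 0) →
      finrank K U ≤ ∑ i ∈ s, finrank K (U ⊓ T.eigenspace (g i) : Submodule K V) := by
  classical
  induction s using Finset.induction_on with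
  | empty =>
    intro U _ h
    rw [(Submodule.eq_bot_iff U).2 (by simpa using h)]; simp
  | insert a s ha ih =>
    intro U h1 h2
    have k : U.map (T - g a • 1) ≤ U := by
      rintro _ ⟨u, hu, rfl⟩; exact sub_mem (h1 u hu) (U.smul_mem _ hu)
    rw [Finset.sum_insert ha, rank_null (T - g a • 1) U, eig_eq]
    refine Nat.add_le_add_left ((ih _ ?_ ?_).trans (Finset.sum_le_sum fun i _ =>
      Submodule.finrank_mono (inf_le_inf_right _ k))) _
    · rintro _ ⟨u, hu, rfl⟩
      exact ⟨T u, h1 u hu, by simp⟩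
    · rintro _ ⟨u, hu, rfl⟩
      have := h2 u hu
      rw [Finset.prod_insert ha, mul_comm, map_mul] at this
      simpa using this

theorem two_le {U U' W : Submodule K V} (h : U ⊓ U' ≤ W) :
    finrank K U + finrank K U' ≤ finrank K V + finrank K W :=
  Submodule.finrank_sup_add_finrank_inf_eq U U' ▸
    Nat.add_le_add (Submodule.finrank_le _) (Submodule.finrank_mono h)

theorem pair_le (T : End K V) (U : Submodule K V) {a b : K} (h : a ≠ b) :
    finrank K (U ⊓ T.eigenspace a : Submodule K V) + finrank K (U ⊓ T.eigenspace b : Submodule K V) ≤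
      finrank K U := by
  simpa [Finset.sum_range_succ] using sum_le T (fun i => if i = 0 then a else b) (Finset.range 2)
    (fun i hi j hj e => by
      simp only [Finset.coe_range, Set.mem_Iio] at hi hj
      interval_cases i <;> interval_cases j <;> simp_all) U

end Lin

/-- A group `Γ` that is abelian modulo scalars, with commutators of order `r` and scalar centraliser. -/
structure Sit {K V G : Type*} [Field K] [AddCommGroup V] [Module K V] [Group G] (ρ : G →* End K V)
    (sc : Kˣ →* G) (Γ : Subgroup G) (r : ℕ) : Prop where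
  pr : r.Prime
  sm : ∀ u, ρ (sc u) = (u : K) • 1
  cen : ∀ u x, sc u * x = x * sc u
  inj : Function.Injective sc
  cm : ∀ x ∈ Γ, ∀ y ∈ Γ, ∃ u : Kˣ, u ^ r = 1 ∧ x * y = sc u * (y * x)
  nd : ∀ x, (∀ y ∈ Γ, x * y = y * x) → x ∈ sc.range

section Main

variable {K V G : Type*} [Field K] [AddCommGroup V] [Module K V] [FiniteDimensional K V] [Group G]
  {ρ : G →* End K V} {sc : Kˣ →* G} {Γ : Subgroup G} {r : ℕ}

theorem rho_inj (x : G) {v : V} (h : ρ x v = 0) : v = 0 := by
  rw [← End.one_apply v (R := K), ← map_one ρ, ← inv_mul_cancel x, map_mul, End.mul_apply, h, map_zero]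

theorem eig_zero (x : G) : finrank K ((ρ x).eigenspace 0) = 0 := by
  rw [(Submodule.eq_bot_iff ((ρ x).eigenspace 0)).2 fun v hv => rho_inj (ρ := ρ) x (by simpa using hv)]
  simp

theorem pow_eig {T : End K V} {a : K} {v : V} (h : T v = a • v) (k : ℕ) : (T ^ k) v = a ^ k • v := by
  induction k with
  | zero => simp
  | succ k ih => rw [pow_succ, End.mul_apply, h, map_smul, ih, smul_smul, pow_succ']

theorem eig_conj (g x : G) (c : K) :
    finrank K ((ρ g).eigenspace c) ≤ finrank K ((ρ (x⁻¹ * g * x)).eigenspace c) :=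
  le_of_maps (N := ρ x⁻¹) (fun v hv => by
    rw [End.mem_eigenspace_iff, ← End.mul_apply, ← map_mul, mul_inv_cancel_right, map_mul,
      End.mul_apply, End.mem_eigenspace_iff.1 hv, map_smul]) fun _ _ => rho_inj _

theorem prim_of {u : Kˣ} (hr : r.Prime) (h : u ^ r = 1) (h1 : u ≠ 1) : IsPrimitiveRoot (u : K) r := by
  have := Fact.mk hr
  rw [IsPrimitiveRoot.coe_units_iff, ← orderOf_eq_prime h h1]
  exact IsPrimitiveRoot.orderOf u

namespace Sit

variable (S : Sit ρ sc Γ r)
include S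

theorem exists_z {y : G} (hy : y ∈ Γ) (h : y ∉ sc.range) :
    ∃ z ∈ Γ, ∃ u : Kˣ, IsPrimitiveRoot (u : K) r ∧ y * z = sc u * (z * y) := by
  obtain ⟨z, hz, e⟩ : ∃ z ∈ Γ, y * z ≠ z * y := by
    by_contra h0
    push Not at h0
    exact h (S.nd y h0)
  obtain ⟨u, h1, h2⟩ := S.cm y hy z hz
  exact ⟨z, hz, u, prim_of S.pr h1 (by rintro rfl; exact e (by simpa using h2)), h2⟩

theorem small {y : G} (hy : y ∈ Γ) (h : y ∉ sc.range) (μ : K) :
    r * finrank K ((ρ y).eigenspace μ) ≤ finrank K V := by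
  rcases eq_or_ne μ 0 with rfl | h0
  · simp [eig_zero]
  obtain ⟨z, -, u, h1, h2⟩ := S.exists_z hy h
  have k : ∀ j : ℕ, finrank K ((ρ y).eigenspace μ) ≤ finrank K ((ρ y).eigenspace ((u : K) ^ j * μ)) :=
    fun j => by
      induction j with
      | zero => rw [pow_zero, one_mul]
      | succ j ih =>
        refine ih.trans (le_of_maps (N := ρ z) (fun v hv => ?_) fun _ _ => rho_inj _)
        rw [End.mem_eigenspace_iff, ← End.mul_apply, ← map_mul, h2, map_mul, map_mul, S.sm,
          smul_mul_assoc, one_mul, LinearMap.smul_apply, End.mul_apply, End.mem_eigenspace_iff.1 hv,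
          map_smul, smul_smul, pow_succ', mul_assoc]
  have := sum_le (ρ y) (fun j => (u : K) ^ j * μ) (Finset.range r) (fun i hi j hj e =>
    h1.pow_inj (by simpa using hi) (by simpa using hj) (mul_right_cancel₀ h0 e)) ⊤
  rw [finrank_top] at this
  refine le_trans ?_ this
  rw [← Finset.card_range r, ← smul_eq_mul, ← Finset.sum_const, Finset.card_range]
  exact Finset.sum_le_sum fun j _ => (k j).trans (Submodule.finrank_mono (by simp))

theorem dvd {y : G} (hy : y ∈ Γ) (h : y ∉ sc.range) : r ∣ finrank K V := by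
  obtain ⟨z, -, u, h1, h2⟩ := S.exists_z hy h
  have k := congrArg (fun a => LinearMap.det (ρ a)) h2
  simp only [map_mul, S.sm, LinearMap.det_smul, map_one, mul_one] at k
  have h3 : ∀ a, LinearMap.det (ρ a) ≠ 0 := fun a =>
    left_ne_zero_of_mul_eq_one (b := LinearMap.det (ρ a⁻¹)) (by rw [← map_mul, ← map_mul]; simp)
  refine h1.dvd_of_pow_eq_one _ (mul_right_cancel₀ (mul_ne_zero (h3 z) (h3 y)) ?_)
  rw [← k, one_mul, mul_comm]

theorem split {y g : G} (hc : y * g = g * y) (hy : y ^ r = 1) {ζ : K} (hζ : IsPrimitiveRoot ζ r)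
    (a : Kˣ) (k : ℕ) (c : K) : finrank K ((ρ (sc a * y ^ k * g)).eigenspace c) ≤
      ∑ j ∈ Finset.range r, finrank K ((ρ y).eigenspace (ζ ^ j) ⊓
        (ρ g).eigenspace (c / (a * (ζ ^ j) ^ k)) : Submodule K V) := by
  refine (le_sum (ρ y) (fun j => ζ ^ j * 1) (Finset.range r) _ (fun u hu => ?_) fun u _ => ?_).trans
    (Finset.sum_le_sum fun j _ => Submodule.finrank_mono fun v hv => ?_)
  · have e : sc a * y ^ k * g * y = y * (sc a * y ^ k * g) := by
      rw [mul_assoc, ← hc, ← mul_assoc, mul_assoc (sc a), ← pow_succ, pow_succ', ← mul_assoc, S.cen,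
        ← mul_assoc, ← mul_assoc]
    rw [End.mem_eigenspace_iff, ← End.mul_apply, ← map_mul, e, map_mul, End.mul_apply,
      End.mem_eigenspace_iff.1 hu, map_smul]
  · rw [← X_pow_sub_C_eq_prod hζ S.pr.pos (one_pow r)]
    rw [map_sub, map_pow, aeval_X, ← map_pow, hy]; simp
  · obtain ⟨h1, h2⟩ := hv
    rw [mul_one] at h2
    refine ⟨h2, End.mem_eigenspace_iff.2 ?_⟩
    have h3 := End.mem_eigenspace_iff.1 h1
    have h0 : (a : K) * (ζ ^ j) ^ k ≠ 0 :=
      mul_ne_zero a.ne_zero (pow_ne_zero _ (pow_ne_zero _ (hζ.ne_zero S.pr.ne_zero)))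
    rw [mul_assoc, (Commute.pow_left hc k).eq, map_mul, map_mul, map_pow, S.sm, smul_mul_assoc, one_mul,
      LinearMap.smul_apply, End.mul_apply, pow_eig (End.mem_eigenspace_iff.1 h2), map_smul,
      smul_smul] at h3
    rw [div_eq_inv_mul, ← smul_smul, ← h3, smul_smul, inv_mul_cancel₀ h0, one_smul]

theorem quad {x y g : G} (hx : x ∈ Γ) (hy : y ∈ Γ) (hn : y ∉ sc.range) (e : x⁻¹ * g * x = y * g)
    (hc : y * g = g * y) (h1 : y ^ r = 1) (h5 : 5 ≤ r) {c : K} (c0 : c ≠ 0) :
    2 * finrank K ((ρ g).eigenspace c) ≤ finrank K V := by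
  obtain ⟨-, -, ζ, hζ, -⟩ := S.exists_z hy hn
  obtain ⟨ω, w1, w2⟩ := S.cm y hy x hx
  have w3 : x⁻¹ * y * x = sc ω * y := by
    rw [mul_assoc, w2, ← mul_assoc, ← S.cen, mul_assoc, inv_mul_cancel_left]
  have st : ∀ (a : Kˣ) (k : ℕ), x⁻¹ * (sc a * y ^ k * g) * x = sc (a * ω ^ k) * y ^ (k + 1) * g :=
    fun a k => by
      have : x⁻¹ * y ^ k * x = sc (ω ^ k) * y ^ k := by
        rw [map_pow, ← (show Commute (sc ω) y from S.cen ω y).mul_pow, ← w3]
        simpa using (conj_pow (a := x⁻¹) (b := y) (i := k)).symm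
      calc _ = x⁻¹ * (sc a * x) * (x⁻¹ * y ^ k * x) * (x⁻¹ * g * x) := by group
        _ = _ := by rw [S.cen a, this, e, map_mul, pow_succ]; group
  have k0 := S.split hc h1 hζ 1 0 c
  have k1 := (eig_conj _ x c).trans (st 1 0 ▸ S.split hc h1 hζ (1 * ω ^ 0) 1 c)
  have k2 := (eig_conj _ x c).trans (st _ 1 ▸ S.split hc h1 hζ (1 * ω ^ 0 * ω ^ 1) 2 c)
  have k3 := (eig_conj _ x c).trans (st _ 2 ▸ S.split hc h1 hζ (1 * ω ^ 0 * ω ^ 1 * ω ^ 2) 3 c)
  have l1 := eig_conj (ρ := ρ) (sc 1 * y ^ 0 * g) x c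
  have l2 := eig_conj (ρ := ρ) (sc (1 * ω ^ 0) * y ^ 1 * g) x c
  rw [st] at l1 l2
  rw [show sc 1 * y ^ 0 * g = g by simp] at k0 k1 l1
  have k4 := sum_le (ρ y) (fun j => (ζ : K) ^ j) (Finset.range r) (fun i hi j hj e =>
    hζ.pow_inj (by simpa using hi) (by simpa using hj) e) ⊤
  rw [finrank_top, Finset.sum_congr rfl fun j _ => by rw [top_inf_eq]] at k4
  have k5 := Nat.add_le_add (Nat.add_le_add k0 k1) (Nat.add_le_add ((l1.trans k2))
    ((l1.trans l2).trans k3))
  simp only [← Finset.sum_add_distrib] at k5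
  obtain ⟨A, hA⟩ : ∃ A : K → K → ℕ, ∀ μ γ, finrank K ((ρ y).eigenspace μ ⊓ (ρ g).eigenspace γ :
    Submodule K V) = A μ γ := ⟨_, fun _ _ => rfl⟩
  simp only [hA] at k5
  have pl : ∀ μ {a b : K}, a ≠ b → A μ a + A μ b ≤ finrank K ((ρ y).eigenspace μ) := fun μ a b h => by
    simpa only [hA] using pair_le (ρ g) ((ρ y).eigenspace μ) h
  have inj : ∀ {a b : K}, a ≠ 0 → b ≠ 0 → a ≠ b → c / a ≠ c / b := fun ha hb h e =>
    h (inv_injective (mul_left_cancel₀ c0 (by simpa only [div_eq_mul_inv] using e)))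
  have z0 : ∀ j : ℕ, (ζ : K) ^ j ≠ 0 := fun j => pow_ne_zero _ ζ.ne_zero
  rcases eq_or_ne ω 1 with rfl | hω
  · have k6 := k5.trans (Finset.sum_le_sum (g := fun j => finrank K ((ρ y).eigenspace ((ζ : K) ^ j)) +
      if j = 0 then 3 * finrank K ((ρ y).eigenspace 1) else 0) fun j hj => by
        split_ifs with h0
        · subst h0
          have := fun a => Submodule.finrank_mono (inf_le_left (a := (ρ y).eigenspace ((ζ : K) ^ 0))
            (b := (ρ g).eigenspace a))
          simp only [hA] at this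
          refine (Nat.add_le_add (Nat.add_le_add (this _) (this _))
            (Nat.add_le_add (this _) (this _))).trans ?_
          rw [pow_zero]; omega
        · have hp : IsPrimitiveRoot ((ζ : K) ^ j) r := hζ.pow_of_coprime j
            (Nat.coprime_of_lt_prime h0 (by simpa using hj) S.pr).symm
          have := sum_le (ρ g) (fun k => c / ((ζ : K) ^ j) ^ k) (Finset.range 4) (fun a ha b hb e => by
            by_contra h
            simp only [Finset.coe_range, Set.mem_Iio] at ha hb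
            exact inj (pow_ne_zero _ (z0 j)) (pow_ne_zero _ (z0 j))
              (fun e => h (hp.pow_inj (by omega) (by omega) e)) e) ((ρ y).eigenspace ((ζ : K) ^ j))
          simp only [Finset.sum_range_succ, Finset.sum_range_zero, hA] at this
          simp only [one_pow, mul_one, Units.val_one, one_mul]
          omega)
    rw [Finset.sum_add_distrib, Finset.sum_ite_eq', if_pos (by simp; omega)] at k6
    have k7 := (Nat.mul_le_mul_right _ h5).trans (S.small hy hn 1)
    omega
  · have hp := prim_of S.pr w1 hω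
    have p1 : (ω : K) ≠ 1 := hp.ne_one S.pr.one_lt
    have p3 : (ω : K) ^ 3 ≠ 1 := hp.pow_ne_one_of_pos_of_lt (by omega) (by omega)
    have k6 := k5.trans (Finset.sum_le_sum (g := fun j => 2 * finrank K ((ρ y).eigenspace ((ζ : K) ^ j)))
      fun j _ => by
        have m0 := z0 j
        have o0 := ω.ne_zero
        simp only [Units.val_mul, Units.val_pow_eq_pow_val, Units.val_one]
        generalize (ζ : K) ^ j = μ at m0 ⊢
        generalize (ω : K) = w at p1 p3 o0 ⊢
        by_cases h : μ = 1 ∨ w ^ 2 * μ = 1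
        · have a1 := pl μ (inj (a := 1 * μ ^ 0)
            (b := 1 * w ^ 0 * w ^ 1 * μ ^ 2) (by simp) (by simp [m0, o0]) fun e => by
              rcases h with rfl | h
              · exact p1 (by linear_combination -e)
              · exact p3 (by linear_combination w ^ 3 * e + (w ^ 2 * μ + 1) * h))
          have a2 := pl μ (inj (a := 1 * w ^ 0 * μ ^ 1)
            (b := 1 * w ^ 0 * w ^ 1 * w ^ 2 * μ ^ 3) (by simp [m0]) (by simp [m0, o0]) fun e => by
              rcases h with rfl | h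
              · exact p3 (by linear_combination -e)
              · exact p1 (by linear_combination w ^ 3 * e +
                  ((w ^ 2 * μ) ^ 2 + w ^ 2 * μ + 1 - w) * h))
          omega
        · rw [not_or] at h
          have a1 := pl μ (inj (a := 1 * μ ^ 0)
            (b := 1 * w ^ 0 * μ ^ 1) (by simp) (by simp [m0]) fun e =>
              h.1 (by linear_combination -e))
          have a2 := pl μ (inj (a := 1 * w ^ 0 * w ^ 1 * μ ^ 2)
            (b := 1 * w ^ 0 * w ^ 1 * w ^ 2 * μ ^ 3) (by simp [m0, o0]) (by simp [m0, o0]) fun e =>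
              h.2 (mul_left_cancel₀ (mul_ne_zero o0 (pow_ne_zero 2 m0)) (by linear_combination -e)))
          omega)
    rw [← Finset.mul_sum] at k6
    omega

theorem main {g : G} (hg : g ∈ Subgroup.normalizer (Γ : Set G)) (hn : g ∉ sc.range) {p : ℕ}
    (hp : p.Prime) (h1 : g ^ p = 1) (c : K) :
    2 * finrank K ((ρ g).eigenspace c) ≤ finrank K V ∨
      (p = 2 ∨ p = 3 ∧ r = 3) ∧ r ∣ finrank K V ∧
        2 * r * finrank K ((ρ g).eigenspace c) ≤ (r + 1) * finrank K V := by
  rcases eq_or_ne c 0 with rfl | c0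
  · simp [eig_zero]
  by_contra h0
  rw [not_or] at h0
  obtain ⟨h0, h2⟩ := h0
  have ms : ∀ x ∈ Γ, g * x * g⁻¹ ∈ Γ := fun x hx => (Subgroup.mem_normalizer_iff.1 hg x).1 hx
  have fx : ∀ x v, v ∈ (ρ g).eigenspace c ⊓ (ρ (x⁻¹ * g * x)).eigenspace c →
      ρ (x⁻¹ * (g * x * g⁻¹)) v = v ∧ ρ (g * (x⁻¹ * (g * x * g⁻¹)) * g⁻¹) v = v := fun x v hv => by
    have a1 := End.mem_eigenspace_iff.1 hv.1
    have a2 : ρ g⁻¹ v = c⁻¹ • v := by
      rw [eq_inv_smul_iff₀ c0, ← map_smul, ← a1, ← End.mul_apply, ← map_mul]; simp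
    have a3 : ρ (x⁻¹ * (g * x * g⁻¹)) v = v := by
      rw [← mul_assoc, ← mul_assoc, map_mul, End.mul_apply, a2, map_smul,
        End.mem_eigenspace_iff.1 hv.2, inv_smul_smul₀ c0]
    exact ⟨a3, by rw [map_mul, map_mul, End.mul_apply, End.mul_apply, a2, map_smul, a3, map_smul, a1,
      inv_smul_smul₀ c0]⟩
  have tw : ∀ x (W : Submodule K V), (∀ v, ρ (x⁻¹ * (g * x * g⁻¹)) v = v →
      ρ (g * (x⁻¹ * (g * x * g⁻¹)) * g⁻¹) v = v → v ∈ W) →
      2 * finrank K ((ρ g).eigenspace c) ≤ finrank K V + finrank K W := fun x W h => by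
    have := two_le (W := W) fun v hv => h v (fx x v hv).1 (fx x v hv).2
    have := eig_conj (ρ := ρ) g x c
    omega
  have sv : ∀ (u : Kˣ) (v : V), (u : K) • v = v → u ≠ 1 → v ∈ (⊥ : Submodule K V) := fun u v h hu => by
    rw [Submodule.mem_bot, ← smul_eq_zero_iff_right (sub_ne_zero.2 (Units.val_eq_one.not.2 hu)),
      sub_smul, h, one_smul, sub_self]
  have A : ∀ x, x⁻¹ * (g * x * g⁻¹) ∈ sc.range → x⁻¹ * (g * x * g⁻¹) = 1 := by
    rintro x ⟨u, e⟩
    by_contra h
    have := tw x ⊥ fun v a _ => sv u v (by rwa [← e, S.sm] at a) fun k =>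
      h (by rw [← e, k, map_one])
    exact h0 (by simpa using this)
  obtain ⟨x₀, hx₀, n₀⟩ : ∃ x ∈ Γ, x⁻¹ * (g * x * g⁻¹) ∉ sc.range := by
    by_contra h
    push Not at h
    exact hn (S.nd g fun x hx => by
      have := A x (h x hx)
      rwa [inv_mul_eq_one, eq_mul_inv_iff_mul_eq, eq_comm] at this)
  have m₀ := mul_mem (inv_mem hx₀) (ms _ hx₀)
  refine h2 ⟨?_, S.dvd m₀ n₀, ?_⟩
  swap
  · have a1 := Nat.mul_le_mul_left r (tw x₀ ((ρ (x₀⁻¹ * (g * x₀ * g⁻¹))).eigenspace 1)
      fun v a _ => by simpa using a)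
    have a2 := S.small m₀ n₀ 1
    nlinarith
  by_contra h3
  rw [not_or] at h3
  choose! b hb1 hb2 using S.cm
  have un : ∀ x ∈ Γ, ∀ y ∈ Γ, ∀ u, x * y = sc u * (y * x) → b x y = u := fun x hx y hy u e =>
    S.inj (mul_right_cancel ((hb2 x hx y hy).symm.trans e))
  let s : Γ →* Γ := ((MulAut.conj g).toMonoidHom.comp Γ.subtype).codRestrict Γ fun x => ms x x.2
  have si : ∀ k (x : Γ), (s^[k] x : Γ) = g ^ k * x * (g ^ k)⁻¹ := fun k x => by
    induction k with
    | zero => simp
    | succ k ih =>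
      rw [Function.iterate_succ_apply']
      change g * (s^[k] x : Γ) * g⁻¹ = _
      rw [ih, pow_succ']; group
  let D : Γ → Γ := fun x => x⁻¹ * s x
  have N := nilp (fun x y : Γ => Additive.ofMul (b x y)) s
    (fun x y z => congrArg Additive.ofMul (un _ x.2 _ (y * z).2 (b x y * b x z) (by
      rw [Subgroup.coe_mul, ← mul_assoc, hb2 _ x.2 _ y.2, mul_assoc, mul_assoc, hb2 _ x.2 _ z.2,
        ← mul_assoc (y : G), ← S.cen, map_mul]; group)))
    (fun x y => congrArg Additive.ofMul (un _ x.2 _ y.2 (b y x)⁻¹ (by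
      rw [hb2 _ y.2 _ x.2, map_inv, inv_mul_cancel_left])))
    (fun x y => congrArg Additive.ofMul (un _ (s x).2 _ (s y).2 _ (by
      change g * x * g⁻¹ * (g * y * g⁻¹) = _ * (g * y * g⁻¹ * (g * x * g⁻¹))
      rw [conj_mul, conj_mul, hb2 _ x.2 _ y.2, ← mul_assoc g, ← S.cen]; group)))
    (hp.odd_of_ne_two h3.1) (fun x => Subtype.ext (by rw [si, h1]; simp)) D (fun _ => rfl)
    fun x => by
      by_contra h
      refine h0 ((tw x ⊥ fun v a1 a2 => sv (b (D x) (s (D x))) v ?_ h).trans (by simp))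
      have := congrArg (fun z => ρ z v) (hb2 _ (D x).2 _ (s (D x)).2)
      change ρ (D x : Γ) v = v at a1
      change ρ (s (D x) : Γ) v = v at a2
      simpa [S.sm, a1, a2] using this.symm
  obtain ⟨x, n1, n2⟩ : ∃ x : Γ, (D x : G) ∉ sc.range ∧ (D (D x) : G) ∈ sc.range := by
    by_contra h
    push Not at h
    refine h _ (h _ (h ⟨x₀, hx₀⟩ n₀)) (S.nd _ fun z hz => ?_)
    have : b z _ = 1 := N ⟨x₀, hx₀⟩ ⟨z, hz⟩
    rw [hb2 z hz _ (D _).2, this, map_one, one_mul]
  have hc : (D x : G) * g = g * D x := by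
    have := A _ n2
    rwa [inv_mul_eq_one, eq_mul_inv_iff_mul_eq] at this
  have e : (x : G)⁻¹ * g * x = D x * g := by
    change _ = (x : G)⁻¹ * (g * x * g⁻¹) * g
    group
  have y1 : (D x : G) ^ p = 1 := by
    have : ((x : G)⁻¹ * g * (x : G)⁻¹⁻¹) ^ p = 1 := by rw [conj_pow, h1]; simp
    rwa [inv_inv, e, Commute.mul_pow hc, h1, mul_one] at this
  obtain ⟨z, -, u, u1, u2⟩ := S.exists_z (D x).2 n1
  obtain rfl : r = p := by
    refine (Nat.prime_dvd_prime_iff_eq S.pr hp).1 (u1.dvd_of_pow_eq_one _ ?_)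
    have : (z⁻¹ * D x * z⁻¹⁻¹) ^ p = 1 := by rw [conj_pow, y1]; simp
    rw [inv_inv, mul_assoc, u2, ← mul_assoc, ← S.cen, mul_assoc, inv_mul_cancel_left,
      (show Commute (sc u) _ from S.cen u _).mul_pow, y1, mul_one, ← map_pow, ← map_one sc] at this
    rw [← Units.val_pow_eq_pow_val, S.inj this, Units.val_one]
  exact h0 (S.quad x.2 (D x).2 n1 e hc y1 (hp.five_le_of_ne_two_of_ne_three h3.1
    fun k => h3.2 ⟨k, k⟩) c0)

end Sit

end Main

end H18.XE
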