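import Cfsg.Agent.Base

/-! 2-groups `D` with `D/V` elementary, `V = Ω₁(D)` central and all non-trivial elements of `V`
having equally many square roots. -/

namespace H18.GY

open Finset
open scoped commutatorElement IsMulCommutative

section Fourier
variable {D : Type*} [Group D] {V : Subgroup D}

theorem comm_mem (hsq : ∀ x : D, x ^ 2 ∈ V) (x y : D) : ⁅x, y⁆ ∈ V := by
  have : ⁅x, y⁆ = x ^ 2 * (x⁻¹ * y) ^ 2 * (y⁻¹) ^ 2 := by
    simp only [commutatorElement_def, pow_two]; group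
  rw [this]
  exact V.mul_mem (V.mul_mem (hsq _) (hsq _)) (hsq _)

theorem comm_mul_left (hc : ∀ v ∈ V, ∀ x : D, x * v = v * x) (hsq : ∀ x : D, x ^ 2 ∈ V)
    (x y z : D) : ⁅x * y, z⁆ = ⁅x, z⁆ * ⁅y, z⁆ := by
  have h1 : ⁅x * y, z⁆ = x * ⁅y, z⁆ * (x⁻¹ * ⁅x, z⁆) := by
    simp only [commutatorElement_def]; group
  rw [h1, hc _ (comm_mem hsq y z) x, mul_assoc, mul_inv_cancel_left,
    hc _ (comm_mem hsq y z)]

theorem comm_mul_right (hc : ∀ v ∈ V, ∀ x : D, x * v = v * x) (hsq : ∀ x : D, x ^ 2 ∈ V)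
    (x y z : D) : ⁅x, y * z⁆ = ⁅x, y⁆ * ⁅x, z⁆ := by
  have h1 : ⁅x, y * z⁆ = ⁅x, y⁆ * (y * ⁅x, z⁆ * y⁻¹) := by
    simp only [commutatorElement_def]; group
  rw [h1, hc _ (comm_mem hsq x z) y, mul_inv_cancel_right]

theorem sq_mul (x z : D) : (x * z) ^ 2 = x ^ 2 * ⁅x⁻¹, z⁆ * z ^ 2 := by
  simp only [commutatorElement_def, pow_two]; group

theorem exists_char [Finite D] (hc : ∀ v ∈ V, ∀ x : D, x * v = v * x) {W : Subgroup D}
    (hW : ¬ V ≤ W) : ∃ χ : D → ℂ, (∀ a ∈ V, ∀ b ∈ V, χ (a * b) = χ a * χ b) ∧ χ 1 = 1 ∧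
      (∀ w ∈ V, w ∈ W → χ w = 1) ∧ ∃ v ∈ V, χ v ≠ 1 := by
  classical
  haveI : IsMulCommutative V := ⟨⟨fun a b => Subtype.ext (hc _ b.2 _)⟩⟩
  obtain ⟨v, hv, hvW⟩ := SetLike.not_le_iff_exists.1 hW
  have h1 : (QuotientGroup.mk ⟨v, hv⟩ : V ⧸ W.subgroupOf V) ≠ 1 := by
    rw [Ne, QuotientGroup.eq_one_iff]; exact hvW
  haveI : NeZero (Monoid.exponent (V ⧸ W.subgroupOf V)) := ⟨Monoid.exponent_ne_zero_of_finite⟩
  obtain ⟨φ, hφ⟩ := CommGroup.exists_apply_ne_one_of_hasEnoughRootsOfUnity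
    (V ⧸ W.subgroupOf V) ℂ h1
  refine ⟨fun x => if h : x ∈ V then (φ (QuotientGroup.mk ⟨x, h⟩) : ℂ) else 0, ?_, ?_, ?_, v, hv, ?_⟩
  · intro a ha b hb
    simp only [ha, hb, V.mul_mem ha hb, dif_pos]
    rw [← Units.val_mul, ← map_mul, ← QuotientGroup.mk_mul]
    rfl
  · simp only [V.one_mem, dif_pos]
    have : (⟨1, V.one_mem⟩ : V) = 1 := rfl
    rw [this, QuotientGroup.mk_one, map_one, Units.val_one]
  · intro w hw hwW
    simp only [hw, dif_pos]
    have : (QuotientGroup.mk ⟨w, hw⟩ : V ⧸ W.subgroupOf V) = 1 := by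
      rw [QuotientGroup.eq_one_iff]; exact hwW
    rw [this, map_one, Units.val_one]
  · simp only [hv, dif_pos]
    intro h
    exact hφ (Units.val_eq_one.1 h)

theorem fourier [Fintype D] [DecidableEq D] (hc : ∀ v ∈ V, ∀ x : D, x * v = v * x)
    (hsq : ∀ x : D, x ^ 2 ∈ V) (hV : ∀ x : D, x ^ 2 = 1 ↔ x ∈ V) (k : ℕ)
    (hk : ∀ v ∈ V, v ≠ 1 → #{x : D | x ^ 2 = v} = k) (χ : D → ℂ)
    (hm : ∀ a ∈ V, ∀ b ∈ V, χ (a * b) = χ a * χ b) (h1 : χ 1 = 1) (hne : ∃ v ∈ V, χ v ≠ 1) :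
    ∃ Rad : Subgroup D, (∀ z, z ∈ Rad ↔ ∀ x : D, χ ⁅x, z⁆ = 1) ∧
      (Nat.card V = k ∨ ((Nat.card V : ℤ) - k) ^ 2 = Nat.card D * Nat.card Rad) := by
  classical
  have hsq1 : ∀ a ∈ V, χ a * χ a = 1 := fun a ha => by
    rw [← hm a ha a ha, ← pow_two, (hV a).2 ha, h1]
  let Rad : Subgroup D :=
    { carrier := {z | ∀ x : D, χ ⁅x, z⁆ = 1}
      one_mem' := fun x => by simp [h1]
      mul_mem' := fun {a b} ha hb x => by
        rw [comm_mul_right hc hsq, hm _ (comm_mem hsq _ _) _ (comm_mem hsq _ _), ha x, hb x,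
          one_mul]
      inv_mem' := fun {a} ha x => by
        have := hm _ (comm_mem hsq x a) _ (comm_mem hsq x a⁻¹)
        rw [← comm_mul_right hc hsq, mul_inv_cancel, commutatorElement_one_right, h1, ha x,
          one_mul] at this
        exact this.symm }
  refine ⟨Rad, fun z => Iff.rfl, ?_⟩
  set S : ℂ := ∑ x : D, χ (x ^ 2) with hS
  -- value of `S`
  have hVsum : ∑ v ∈ univ.filter (· ∈ V), χ v = 0 := by
    let f : V →* ℂ :=
      { toFun := fun v => χ v, map_one' := h1, map_mul' := fun a b => hm _ a.2 _ b.2 }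
    have hf : f ≠ 1 := by
      obtain ⟨v, hv, hv1⟩ := hne
      intro e
      exact hv1 (DFunLike.congr_fun e ⟨v, hv⟩)
    have := sum_hom_units_eq_zero f hf
    rw [← this]
    exact Finset.sum_subtype _ (fun x => by simp) χ
  have hcardV : #(univ.filter (· ∈ V)) = Nat.card V := by
    rw [Nat.card_eq_fintype_card, Fintype.card_subtype]
  have hS1 : S = (Nat.card V : ℂ) - k := by
    rw [hS, ← sum_fiberwise_of_maps_to' (t := univ.filter (· ∈ V)) (g := fun x : D => x ^ 2)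
      (fun x _ => by simpa using hsq x) χ]
    have h1V : (1 : D) ∈ univ.filter (· ∈ V) := by simpa using V.one_mem
    rw [← add_sum_erase _ _ h1V] at hVsum ⊢
    have e1 : ∑ i ∈ univ.filter (fun x : D => x ^ 2 = 1), χ 1 = (Nat.card V : ℂ) := by
      rw [sum_const, h1, nsmul_eq_mul, mul_one, ← hcardV]
      congr 2
      ext x; simp [hV]
    have e2 : ∑ v ∈ (univ.filter (· ∈ V)).erase 1, ∑ i ∈ univ.filter (fun x : D => x ^ 2 = v),
        χ v = k * ∑ v ∈ (univ.filter (· ∈ V)).erase 1, χ v := by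
      rw [mul_sum]
      refine sum_congr rfl fun v hv => ?_
      rw [mem_erase, mem_filter] at hv
      rw [sum_const, hk v hv.2.2 hv.1, nsmul_eq_mul]
    rw [e1, e2]
    rw [h1] at hVsum
    have : ∑ v ∈ (univ.filter (· ∈ V)).erase 1, χ v = -1 := by linear_combination hVsum
    rw [this]; ring
  -- value of `S ^ 2`
  have hS2 : S ^ 2 = Nat.card D * ∑ z : Rad, χ ((z : D) ^ 2) := by
    have e1 : S ^ 2 = ∑ x : D, ∑ z : D, χ (x ^ 2) * χ ((x * z) ^ 2) := by
      rw [pow_two, hS, sum_mul]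
      refine sum_congr rfl fun x _ => ?_
      rw [← mul_sum]
      congr 1
      exact (Fintype.sum_equiv (Equiv.mulLeft x) _ _ fun z => rfl).symm
    have e2 : ∀ x z : D, χ (x ^ 2) * χ ((x * z) ^ 2) = χ (z ^ 2) * χ ⁅x⁻¹, z⁆ := fun x z => by
      rw [sq_mul, hm _ (V.mul_mem (hsq _) (comm_mem hsq _ _)) _ (hsq _),
        hm _ (hsq _) _ (comm_mem hsq _ _)]
      linear_combination (χ ⁅x⁻¹, z⁆ * χ (z ^ 2)) * hsq1 _ (hsq x)
    have e3 : ∀ z : D, ∑ x : D, χ ⁅x⁻¹, z⁆ = if z ∈ Rad then (Nat.card D : ℂ) else 0 := fun z => by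
      split_ifs with hz
      · rw [sum_congr rfl fun x _ => hz x⁻¹, sum_const, card_univ, Nat.card_eq_fintype_card]
        simp
      · let f : D →* ℂ :=
          { toFun := fun x => χ ⁅x, z⁆
            map_one' := by simp [h1]
            map_mul' := fun a b => by
              rw [comm_mul_left hc hsq, hm _ (comm_mem hsq _ _) _ (comm_mem hsq _ _)] }
        have hf : f ≠ 1 := fun e => hz fun x => DFunLike.congr_fun e x
        rw [← sum_hom_units_eq_zero f hf]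
        exact Fintype.sum_equiv (Equiv.inv D) _ _ fun z => rfl
    rw [e1, sum_comm]
    simp_rw [e2, ← mul_sum, e3]
    rw [mul_sum, ← Finset.sum_subtype (univ.filter (· ∈ Rad)) (fun x => by simp)
      (fun z => (Nat.card D : ℂ) * χ (z ^ 2)), sum_filter]
    refine sum_congr rfl fun z _ => ?_
    split_ifs <;> ring
  let g : Rad →* ℂ :=
    { toFun := fun z => χ ((z : D) ^ 2)
      map_one' := by simp [h1]
      map_mul' := fun a b => by
        rw [Subgroup.coe_mul, sq_mul, hm _ (V.mul_mem (hsq _) (comm_mem hsq _ _)) _ (hsq _),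
          hm _ (hsq _) _ (comm_mem hsq _ _), b.2 _, mul_one] }
  by_cases hg : g = 1
  · right
    have : ∑ z : Rad, χ ((z : D) ^ 2) = Nat.card Rad := by
      have : ∀ z : Rad, χ ((z : D) ^ 2) = 1 := fun z => DFunLike.congr_fun hg z
      simp [this]
    rw [this, hS1] at hS2
    exact_mod_cast hS2
  · left
    have : ∑ z : Rad, χ ((z : D) ^ 2) = 0 := sum_hom_units_eq_zero g hg
    rw [this, mul_zero, hS1] at hS2
    have := pow_eq_zero_iff (two_ne_zero) |>.1 hS2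
    exact_mod_cast sub_eq_zero.1 this

end Fourier

section Arith

theorem dvd_of_pred_dvd {n e : ℕ} (hn : 2 ≤ n) (h : 2 ^ n - 1 ∣ 2 ^ e - 1) : n ∣ e := by
  have h1 := Nat.pow_sub_one_mod_pow_sub_one 2 n e
  rw [Nat.mod_eq_zero_of_dvd h] at h1
  have h2 : 2 ^ (e % n) = 1 := by
    have := Nat.one_le_two_pow (n := e % n)
    omega
  exact Nat.dvd_of_mod_eq_zero (Nat.pow_eq_one.1 h2 |>.resolve_left (by norm_num))

theorem arith {n m r k : ℕ} (hn : 2 ≤ n) (hD : 2 ^ m = 2 ^ n + (2 ^ n - 1) * k) (hk0 : k ≠ 0)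
    (hr : n ≤ r) (h : ((2 ^ n : ℕ) - (k : ℤ)) ^ 2 = (2 ^ m : ℕ) * (2 ^ r : ℕ)) :
    m = 3 * n ∧ r = n := by
  have hq : 4 ≤ 2 ^ n := by
    calc 4 = 2 ^ 2 := by norm_num
      _ ≤ 2 ^ n := Nat.pow_le_pow_right (by norm_num) hn
  have hdiv : n ∣ m := by
    apply dvd_of_pred_dvd hn
    refine ⟨1 + k, ?_⟩
    rw [mul_add]; omega
  obtain ⟨j, rfl⟩ := hdiv
  set q := 2 ^ n with hqd
  have hqj : 2 ^ (n * j) = q ^ j := by rw [pow_mul]
  obtain ⟨s, rfl⟩ := Nat.exists_eq_add_of_le hr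
  have hr2 : 2 ^ (n + s) = q * 2 ^ s := by rw [pow_add]
  rw [hqj] at hD h
  rw [hr2] at h
  have hD' : (q : ℤ) ^ j = q + (q - 1) * k := by
    have : ((q - 1 : ℕ) : ℤ) = q - 1 := by
      rw [Nat.cast_sub (by omega)]; rfl
    rw [← this]; exact_mod_cast hD
  push_cast at h
  -- `(q - 1) (k - q) = q ^ j - q ^ 2`
  have e1 : ((q : ℤ) - 1) * (k - q) = q ^ j - q ^ 2 := by linear_combination -hD'
  have e2 : ((q : ℤ) ^ j - q ^ 2) ^ 2 = (q - 1) ^ 2 * (q ^ j * (q * 2 ^ s)) := by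
    rw [← e1, ← h]; ring
  have hq0 : (4 : ℤ) ≤ q := by exact_mod_cast hq
  have hj : 3 ≤ j := by
    by_contra hj
    have hk1 : (1 : ℤ) ≤ k := by exact_mod_cast Nat.one_le_iff_ne_zero.2 hk0
    have h2s : (1 : ℤ) ≤ 2 ^ s := one_le_pow₀ (by norm_num)
    interval_cases j
    · simp at hD'; nlinarith
    · simp at hD'; rcases hD' with h | h <;> [linarith; exact hk0 h]
    · have : ((q : ℤ) - 1) ^ 2 * (q ^ 2 * (q * 2 ^ s)) = 0 := by rw [← e2]; ring
      have h3 : (0 : ℤ) < (q - 1) ^ 2 * (q ^ 2 * (q * 2 ^ s)) := by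
        have : (0 : ℤ) < q - 1 := by linarith
        positivity
      linarith
  obtain ⟨i, rfl⟩ := Nat.exists_eq_add_of_le hj
  have e3 : ((q : ℤ) ^ (i + 1) - 1) ^ 2 = (q - 1) ^ 2 * (q ^ i * 2 ^ s) := by
    have hq4 : (q : ℤ) ^ 4 ≠ 0 := by positivity
    apply mul_left_cancel₀ hq4
    linear_combination e2
  have hqe : Even (q : ℤ) := by
    rw [hqd]; push_cast
    exact Even.pow_of_ne_zero (by norm_num) (by omega)
  have hodd : Odd (((q : ℤ) ^ (i + 1) - 1) ^ 2) :=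
    ((hqe.pow_of_ne_zero (by omega)).sub_odd odd_one).pow
  rw [e3] at hodd
  have h5 := (Int.odd_mul.1 (Int.odd_mul.1 hodd).2)
  have hi : i = 0 := by
    by_contra hi
    exact (Int.not_odd_iff_even.2 (hqe.pow_of_ne_zero hi)) h5.1
  have hs : s = 0 := by
    by_contra hs
    exact (Int.not_odd_iff_even.2 (Even.pow_of_ne_zero (by norm_num) hs)) h5.2
  subst hi hs
  constructor <;> ring

end Arith

section Struct
variable {D : Type*} [Group D] {V : Subgroup D}

theorem struct [Fintype D] [DecidableEq D] (hD : IsPGroup 2 D)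
    (hc : ∀ v ∈ V, ∀ x : D, x * v = v * x)
    (hsq : ∀ x : D, x ^ 2 ∈ V) (hV : ∀ x : D, x ^ 2 = 1 ↔ x ∈ V) {n : ℕ} (hn : 2 ≤ n)
    (hq : Nat.card V = 2 ^ n) (k : ℕ)
    (hk : ∀ v ∈ V, v ≠ 1 → #{x : D | x ^ 2 = v} = k) (hne : V ≠ ⊤) :
    k = Nat.card V ∨ (Nat.card D = Nat.card V ^ 3 ∧
      ∀ x ∉ V, (Subgroup.centralizer {x}).index = Nat.card V) := by
  classical
  haveI : Fact (Nat.Prime 2) := ⟨Nat.prime_two⟩
  by_cases hkq : k = Nat.card V
  · exact Or.inl hkq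
  right
  have hcardV : #(univ.filter (· ∈ V)) = Nat.card V := by
    rw [Nat.card_eq_fintype_card, Fintype.card_subtype]
  have hcount : Nat.card D = Nat.card V + (Nat.card V - 1) * k := by
    rw [Nat.card_eq_fintype_card (α := D), ← card_univ,
      card_eq_sum_card_fiberwise (t := univ.filter (· ∈ V)) (f := fun x : D => x ^ 2)
        (fun x _ => by simpa using hsq x)]
    have h1V : (1 : D) ∈ univ.filter (· ∈ V) := by simpa using V.one_mem
    rw [← add_sum_erase _ _ h1V, sum_congr rfl (g := fun _ => k), sum_const, card_erase_of_mem h1V,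
      hcardV, smul_eq_mul]
    · congr 1
      rw [← hcardV]; congr 1; ext x; simp [hV]
    · intro v hv
      rw [mem_erase, mem_filter] at hv
      exact hk v hv.2.2 hv.1
  obtain ⟨m, hm⟩ := IsPGroup.iff_card.1 hD
  have hk0 : k ≠ 0 := by
    rintro rfl
    apply hne
    exact Subgroup.eq_top_of_card_eq _ (by omega)
  have main : ∀ W : Subgroup D, ¬ V ≤ W → Nat.card D = Nat.card V ^ 3 ∧
      ∀ x : D, (∀ y : D, ⁅y, x⁆ ∈ W) → x ∈ V := by
    intro W hW
    obtain ⟨χ, h1, h2, h3, h4⟩ := exists_char hc hW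
    obtain ⟨Rad, hR, h5⟩ := fourier hc hsq hV k hk χ h1 h2 h4
    have h6 := h5.resolve_left (Ne.symm hkq)
    have hVR : V ≤ Rad := fun v hv => (hR v).2 fun x => by
      rw [commutatorElement_eq_one_iff_mul_comm.2 (hc v hv x), h2]
    obtain ⟨r, hr⟩ := IsPGroup.iff_card.1 (hD.to_subgroup Rad)
    have hnr : n ≤ r := by
      have := Subgroup.card_le_of_le hVR
      rw [hq, hr] at this
      exact (Nat.pow_le_pow_iff_right (by norm_num)).1 this
    rw [hq, hm, hr] at h6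
    rw [hq, hm] at hcount
    obtain ⟨e1, e2⟩ := arith hn hcount hk0 hnr h6
    refine ⟨by rw [hm, hq, e1, ← pow_mul, mul_comm], fun x hx => ?_⟩
    have : V = Rad := Subgroup.eq_of_le_of_card_ge hVR (by rw [hq, hr, e2])
    rw [this, hR]
    exact fun y => h3 _ (comm_mem hsq y x) (hx y)
  have hV0 : ¬ V ≤ ⊥ := by
    intro h
    have := Subgroup.card_le_of_le h
    rw [hq, Subgroup.card_bot] at this
    have : 2 ^ 2 ≤ 2 ^ n := Nat.pow_le_pow_right (by norm_num) hn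
    omega
  refine ⟨(main ⊥ hV0).1, fun x hx => ?_⟩
  let φ : D →* D := MonoidHom.mk' (fun y => ⁅y, x⁆) fun a b => comm_mul_left hc hsq a b x
  have hker : φ.ker = Subgroup.centralizer {x} := by
    ext y
    rw [MonoidHom.mem_ker, Subgroup.mem_centralizer_singleton_iff]
    exact commutatorElement_eq_one_iff_mul_comm
  have hr : φ.range = V := by
    apply le_antisymm
    · rintro _ ⟨y, rfl⟩
      exact comm_mem hsq y x
    · by_contra h
      exact hx ((main _ h).2 x fun y => ⟨y, rfl⟩)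
  rw [← hker, Subgroup.index_ker, hr]

end Struct

section Homo

theorem homocyclic {S : Type*} [Group S] [Finite S] [IsMulCommutative S] (hS : IsPGroup 2 S)
    (ht : ∀ x y : S, x ≠ 1 → x ^ 2 = 1 → y ≠ 1 → y ^ 2 = 1 → ∃ a : MulAut S, a x = y) :
    ∃ m r : ℕ, Nonempty (S ≃* (Fin r → Multiplicative (ZMod (2 ^ m)))) := by
  classical
  haveI : Fact (Nat.Prime 2) := ⟨Nat.prime_two⟩
  obtain ⟨ι, _, n, hn, ⟨e⟩⟩ := CommGroup.equiv_prod_multiplicative_zmod_of_finite S
  have hpow : ∀ i, ∃ a, n i = 2 ^ (a + 1) := by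
    intro i
    haveI : NeZero (n i) := ⟨by have := hn i; omega⟩
    have h1 : IsPGroup 2 (Multiplicative (ZMod (n i))) :=
      (hS.of_equiv e).of_surjective (Pi.evalMonoidHom _ i) (Function.surjective_eval i)
    obtain ⟨a, ha⟩ := IsPGroup.iff_card.1 h1
    rw [Nat.card_congr Multiplicative.toAdd, Nat.card_zmod] at ha
    cases a with
    | zero => have := hn i; omega
    | succ a => exact ⟨a, ha⟩
  choose a ha using hpow
  -- the involution in factor `i`
  let g : ∀ i, ∀ j, Multiplicative (ZMod (n j)) := fun i =>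
    Pi.mulSingle i (Multiplicative.ofAdd (1 : ZMod (n i)))
  have hord : ∀ i, orderOf (g i) = 2 ^ (a i + 1) := fun i => by
    rw [← ha i]
    change orderOf (MonoidHom.mulSingle (fun j => Multiplicative (ZMod (n j))) i _) = _
    rw [orderOf_injective _ (Pi.mulSingle_injective (M := fun j => Multiplicative (ZMod (n j))) i),
      orderOf_ofAdd_eq_addOrderOf, ZMod.addOrderOf_one]
  have hne : ∀ i, g i ^ 2 ^ a i ≠ 1 := fun i =>
    pow_ne_one_of_lt_orderOf (by positivity) (by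
      rw [hord]; exact Nat.pow_lt_pow_right (by norm_num) (by omega))
  have hsq : ∀ i, (g i ^ 2 ^ a i) ^ 2 = 1 := fun i => by
    rw [← pow_mul, ← pow_succ, ← hord, pow_orderOf_eq_one]
  have hle : ∀ i j, a j ≤ a i := by
    intro i j
    obtain ⟨σ, hσ⟩ := ht (e.symm (g j ^ 2 ^ a j)) (e.symm (g i ^ 2 ^ a i))
      (e.symm.map_ne_one_iff.2 (hne j)) (by rw [← map_pow, hsq, map_one])
      (e.symm.map_ne_one_iff.2 (hne i)) (by rw [← map_pow, hsq, map_one])
    by_contra hlt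
    have h1 : (e (σ (e.symm (g j)))) ^ 2 ^ a j = g i ^ 2 ^ a i := by
      rw [← map_pow, ← map_pow, ← map_pow, hσ, MulEquiv.apply_symm_apply]
    apply hne i
    ext l
    by_cases hl : l = i
    · subst hl
      rw [← h1, Pi.pow_apply]
      haveI : NeZero (n l) := ⟨by have := hn l; omega⟩
      have h2 : n l ∣ 2 ^ a j := by rw [ha]; exact pow_dvd_pow _ (by omega)
      have h3 : (e (σ (e.symm (g j)))) l ^ n l = 1 := by
        have := pow_card_eq_one' (x := (e (σ (e.symm (g j)))) l)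
        rwa [Nat.card_congr Multiplicative.toAdd, Nat.card_zmod] at this
      obtain ⟨c, hc⟩ := h2
      rw [hc, pow_mul, h3, one_pow]; rfl
    · simp [g, Pi.mulSingle_eq_of_ne hl]
  rcases isEmpty_or_nonempty ι with hι | ⟨⟨i0⟩⟩
  · haveI : Subsingleton S := e.injective.subsingleton
    haveI : Unique S := uniqueOfSubsingleton 1
    exact ⟨0, 0, ⟨MulEquiv.ofUnique⟩⟩
  · have hall : n = fun _ => 2 ^ (a i0 + 1) := funext fun i => by
      rw [ha, le_antisymm (hle i0 i) (hle i i0)]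
    clear hle hsq hne hord g ha hn
    subst hall
    exact ⟨a i0 + 1, Fintype.card ι,
      ⟨e.trans (MulEquiv.arrowCongr (Fintype.equivFin ι) (MulEquiv.refl _))⟩⟩

end Homo

end H18.GY
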