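import Cfsg.Agent.S3784
import Cfsg.Agent.H3.NonCyclic
import Cfsg.Agent.H3.DSQ
import Cfsg.Agent.H2.MinNormal
import Cfsg.Agent.H9.PBasic

/-! Half-transitive linear p-groups (row S3371). -/

namespace H18.HT
open Subgroup MulAction Finset
open scoped commutatorElement

variable {F V G : Type*} [Field F] [AddCommGroup V] [Module F V] [Group G] [Finite G]
  [DistribMulAction G V] [SMulCommClass G F V] {p : ℕ}

/-- The fixed space of an element. -/
def Fx (F : Type*) (V : Type*) {G : Type*} [Field F] [AddCommGroup V] [Module F V] [Group G]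
    [DistribMulAction G V] [SMulCommClass G F V] (t : G) : Submodule F V where
  carrier := {w | t • w = w}
  add_mem' := fun {a b} (ha : t • a = a) (hb : t • b = b) => show t • (a + b) = a + b by
    rw [smul_add, ha, hb]
  zero_mem' := smul_zero t
  smul_mem' := fun c a (ha : t • a = a) => show t • c • a = c • a by rw [smul_comm, ha]

theorem mem_Fx {t : G} {w : V} : w ∈ Fx F V t ↔ t • w = w := Iff.rfl

/-- The standing hypotheses. -/
structure HS (p : ℕ) (F V G : Type*) [Field F] [AddCommGroup V] [Module F V] [Group G]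
    [DistribMulAction G V] : Prop where
  pg : IsPGroup p G
  ch : (p : F) ≠ 0
  ff : ∀ g : G, (∀ v : V, g • v = v) → g = 1
  hs : ∀ v w : V, v ≠ 0 → w ≠ 0 → Nat.card (stabilizer G v) = Nat.card (stabilizer G w)

namespace HS
variable [hp : Fact p.Prime] (h : HS p F V G)
include h

theorem eq_of_le {v w : V} (hv : v ≠ 0) (hw : w ≠ 0) (hle : stabilizer G v ≤ stabilizer G w) :
    stabilizer G v = stabilizer G w := eq_of_le_of_card_ge hle (h.hs w v hw hv).le

theorem nsm {n : ℕ} (hn : (n : F) ≠ 0) {v : V} (hv : n • v = 0) : v = 0 := by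
  rw [← Nat.cast_smul_eq_nsmul F] at hv
  exact (smul_eq_zero.1 hv).resolve_left hn

theorem fix_normal (N : Subgroup G) [hN : N.Normal] (hN0 : N ≠ ⊥) {u : V}
    (hu : ∀ n ∈ N, n • u = u) : u = 0 := by
  classical
  have := Fintype.ofFinite N
  by_contra hu0
  have hc : ((Fintype.card N : ℕ) : F) ≠ 0 := by
    obtain ⟨k, hk⟩ := (h.pg.to_subgroup N).exists_card_eq
    rw [← Nat.card_eq_fintype_card, hk, Nat.cast_pow]; exact pow_ne_zero _ h.ch
  let e : V → V := fun w => ∑ n : N, (n : G) • w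
  have e1 : ∀ a b, e (a + b) = e a + e b := fun a b => by simp only [e, smul_add, sum_add_distrib]
  have e2 : ∀ (g : G) w, e (g • w) = g • e w := fun g w => by
    simp only [e, smul_sum]
    refine (Fintype.sum_equiv (MulAut.conjNormal g : MulAut N).toEquiv _ _ fun n => ?_).symm
    simp [smul_smul]
  have e3 : ∀ w, (∀ n ∈ N, n • w = w) → e w = Fintype.card N • w := fun w hw => by
    simp only [e]
    rw [sum_congr rfl fun (n : N) _ => hw n n.2, sum_const, card_univ]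
  obtain ⟨n, hn, hn1⟩ := (bot_or_exists_ne_one N).resolve_left hN0
  obtain ⟨x, hx⟩ : ∃ x : V, n • x ≠ x := by
    by_contra hc; push Not at hc; exact hn1 (h.ff n hc)
  set w := n • x - x with hw
  have hw0 : w ≠ 0 := sub_ne_zero.2 hx
  have hew : e w = 0 := by
    simp only [e, hw, smul_sub, sum_sub_distrib, smul_smul, sub_eq_zero]
    exact Fintype.sum_equiv (Equiv.mulRight (⟨n, hn⟩ : N)) _ _ fun m => rfl
  have h1 : e (u + w) = Fintype.card N • u := by rw [e1, hew, add_zero, e3 u hu]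
  have h2 : u + w ≠ 0 := fun h0 => hu0 (h.nsm hc (by rw [← h1, h0]; simp [e]))
  have h3 : stabilizer G (u + w) ≤ stabilizer G u := fun g hg => by
    have h4 := e2 g (u + w)
    rw [mem_stabilizer_iff.1 hg, h1, smul_comm, eq_comm, ← sub_eq_zero, ← smul_sub] at h4
    exact sub_eq_zero.1 (h.nsm hc h4)
  have h4 : stabilizer G (u + w) ≤ stabilizer G w := fun g hg => by
    have h5 := mem_stabilizer_iff.1 hg
    rw [smul_add, mem_stabilizer_iff.1 (h3 hg)] at h5
    exact add_left_cancel h5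
  have h5 := (h.eq_of_le h2 hu0 h3).symm.trans (h.eq_of_le h2 hw0 h4)
  exact hw0 (h.nsm hc (by rw [← e3 w fun m hm => (h5 ▸ (hu m hm : m ∈ stabilizer G u) :
    m ∈ stabilizer G w), hew]))

theorem fix_central {u : G} (hu : u ∈ center G) (h1 : u ≠ 1) {w : V} (hw : u • w = w) : w = 0 := by
  have : (zpowers u).Normal := ⟨fun n hn g => by
    rwa [mem_center_iff.1 (zpowers_le.2 hu hn) g, mul_inv_cancel_right]⟩
  exact h.fix_normal (zpowers u) (by rwa [Ne, zpowers_eq_bot]) fun n hn =>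
    (zpowers_le (H := stabilizer G w)).2 hw hn

theorem norm_central {u : G} (hu : u ∈ center G) (h1 : u ≠ 1) (hup : u ^ p = 1) (w : V) :
    ∑ j ∈ range p, u ^ j • w = 0 := by
  refine h.fix_central hu h1 ?_
  have h2 := sum_range_succ' (fun j => u ^ j • w) p
  rw [sum_range_succ, hup, pow_zero] at h2
  rw [smul_sum, add_right_cancel h2]
  exact sum_congr rfl fun j _ => by rw [smul_smul, pow_succ']

theorem proj_zero {t u : G} (hu : u ∈ center G) (h1 : u ≠ 1) (hup : u ^ p = 1) {w : V}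
    (hw : t • w = w) : ∑ j ∈ range p, (u * t) ^ j • w = 0 := by
  rw [← h.norm_central hu h1 hup w]
  refine sum_congr rfl fun j _ => ?_
  rw [(show Commute u t from (mem_center_iff.1 hu t).symm).mul_pow, mul_smul,
    (stabilizer G w).pow_mem hw j]

omit h in
theorem proj_self {t : G} {w : V} (hw : t • w = w) : ∑ j ∈ range p, t ^ j • w = p • w := by
  rw [sum_congr rfl fun j _ => (stabilizer G w).pow_mem hw j, sum_const, card_range]

theorem exists_fix [Nontrivial V] {z y : G} (hz : z ∈ center G) (ho : orderOf z = p)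
    (hy : y ^ p = 1) : ∃ u ∈ zpowers z, ∃ v : V, v ≠ 0 ∧ (u * y) • v = v := by
  by_contra hc
  push Not at hc
  obtain ⟨v, hv⟩ := exists_ne (0 : V)
  have hzp : z ^ p = 1 := ho ▸ pow_orderOf_eq_one z
  have hcm : ∀ i, Commute (z ^ i) y := fun i => (mem_center_iff.1 (pow_mem hz i) y).symm
  have h1 : ∀ i, ∑ j ∈ range p, (z ^ i * y) ^ j • v = 0 := fun i => by
    by_contra h0
    refine hc _ (pow_mem (mem_zpowers z) i) _ h0 ?_
    have h2 := sum_range_succ' (fun j => (z ^ i * y) ^ j • v) p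
    rw [sum_range_succ, (hcm i).mul_pow, ← pow_mul, mul_comm i, pow_mul, hzp, hy, one_pow, one_mul,
      pow_zero] at h2
    rw [smul_sum, add_right_cancel h2]
    exact sum_congr rfl fun j _ => by rw [smul_smul, pow_succ']
  have h2 : ∑ j ∈ range p, ∑ i ∈ range p, (z ^ i * y) ^ j • v = 0 := by
    rw [sum_comm]; exact sum_eq_zero fun i _ => h1 i
  rw [sum_eq_single_of_mem 0 (mem_range.2 hp.out.pos)] at h2
  · simp only [pow_zero, one_smul, sum_const, card_range] at h2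
    exact hv (h.nsm h.ch h2)
  · intro j hj hj0
    rw [← h.norm_central (pow_mem hz j) (pow_ne_one_of_lt_orderOf hj0 (ho ▸ mem_range.1 hj))
      (by rw [← pow_mul, mul_comm, pow_mul, hzp, one_pow]) (y ^ j • v)]
    exact sum_congr rfl fun i _ => by
      rw [(hcm i).mul_pow, mul_smul, ← pow_mul, ← pow_mul, mul_comm]

theorem eq_two {z y : G} (hz : z ∈ center G) (ho : orderOf z = p) (hy : y ∉ center G)
    (hc : ∀ g : G, ⁅g, y⁆ ∈ zpowers z) {v : V} (hv : v ≠ 0) (hyv : y • v = v) : p = 2 := by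
  by_contra hp2
  have hZ : zpowers z ≤ center G := zpowers_le.2 hz
  have hZp : ∀ u ∈ zpowers z, u ^ p = 1 := fun u hu =>
    orderOf_dvd_iff_pow_eq_one.1 (ho ▸ orderOf_dvd_of_mem_zpowers hu)
  have hcm : ∀ u ∈ zpowers z, ∀ g, g * u = u * g := fun u hu => mem_center_iff.1 (hZ hu)
  have hcj : ∀ (g : G) (u : G) (w : V), u ∈ zpowers z → (u * y) • w = w →
      (u * ⁅g, y⁆ * y) • g • w = g • w := fun g u w hu hw => by
    have : u * ⁅g, y⁆ * y * g = g * (u * y) := by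
      rw [commutatorElement_def, ← mul_assoc g, hcm u hu g]; group
    rw [smul_smul, this, mul_smul, hw]
  have hpr : ∀ a ∈ zpowers z, ∀ b ∈ zpowers z, a ≠ b → ∀ w : V, (b * y) • w = w →
      ∑ j ∈ range p, (a * y) ^ j • w = 0 := fun a ha b hb hab w hw => by
    have h1 := mul_mem ha (inv_mem hb)
    have := h.proj_zero (hZ h1) (fun e => hab (mul_inv_eq_one.1 e)) (hZp _ h1) hw
    rwa [mul_assoc, inv_mul_cancel_left] at this
  obtain ⟨g₀, hg₀⟩ : ∃ g : G, ⁅g, y⁆ ≠ 1 := by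
    by_contra hc'; push Not at hc'
    exact hy (mem_center_iff.2 fun g => commutatorElement_eq_one_iff_mul_comm.1 (hc' g))
  set c := ⁅g₀, y⁆ with hc0
  set w := g₀ • v with hw
  have hw0 : w ≠ 0 := (smul_ne_zero_iff_ne g₀).2 hv
  have hv1 : ((1 : G) * y) • v = v := by rwa [one_mul]
  have hw1 : (c * y) • w = w := by simpa using hcj g₀ 1 v (one_mem _) hv1
  have hπ : ∀ (t : G) (a b : V), ∑ j ∈ range p, t ^ j • (a + b) =
      ∑ j ∈ range p, t ^ j • a + ∑ j ∈ range p, t ^ j • b := fun t a b => by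
    simp only [smul_add, sum_add_distrib]
  have p1 : ∑ j ∈ range p, ((1 : G) * y) ^ j • (v + w) = p • v := by
    rw [hπ, proj_self hv1, hpr 1 (one_mem _) c (hc g₀) hg₀.symm w hw1, add_zero]
  have p2 : ∑ j ∈ range p, (c * y) ^ j • (v + w) = p • w := by
    rw [hπ, proj_self hw1, hpr c (hc g₀) 1 (one_mem _) hg₀ v hv1, zero_add]
  have h0 : v + w ≠ 0 := fun e => hv (h.nsm h.ch (by rw [← p1, e]; simp))
  have h1 : stabilizer G (v + w) ≤ stabilizer G v := fun g hg => by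
    have e := mem_stabilizer_iff.1 hg
    have a1 := hcj g 1 v (one_mem _) hv1
    have a2 := hcj g c w (hc g₀) hw1
    rw [one_mul] at a1
    have hb := hc g
    set b := ⁅g, y⁆
    rw [← e, smul_add, hπ] at p1 p2
    by_cases e1 : b = 1
    · rw [e1] at a1 a2
      rw [proj_self a1, hpr 1 (one_mem _) _ (mul_mem (hc g₀) (one_mem _)) (by simpa using hg₀.symm)
        _ a2, add_zero, ← sub_eq_zero, ← smul_sub] at p1
      exact sub_eq_zero.1 (h.nsm h.ch p1)
    exfalso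
    by_cases e2 : c * b = 1
    · by_cases e3 : c = b
      · apply hg₀
        have h2 : c ^ 2 = 1 := by rw [sq]; nth_rewrite 2 [e3]; exact e2
        have h3 := Nat.dvd_gcd (orderOf_dvd_of_pow_eq_one h2)
          (orderOf_dvd_of_pow_eq_one (hZp c (hc g₀)))
        rwa [((Nat.coprime_primes Nat.prime_two hp.out).2 (Ne.symm hp2)).gcd_eq_one, Nat.dvd_one,
          orderOf_eq_one_iff] at h3
      · rw [hpr c (hc g₀) b hb e3 _ a1, hpr c (hc g₀) _ (mul_mem (hc g₀) hb)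
          (fun e => e1 (left_eq_mul.1 e)) _ a2, add_zero] at p2
        exact hw0 (h.nsm h.ch p2.symm)
    · rw [hpr 1 (one_mem _) b hb (Ne.symm e1) _ a1, hpr 1 (one_mem _) _ (mul_mem (hc g₀) hb)
        (Ne.symm e2) _ a2, add_zero] at p1
      exact hv (h.nsm h.ch p1.symm)
  have h2 : stabilizer G (v + w) ≤ stabilizer G w := fun g hg => by
    have h5 := mem_stabilizer_iff.1 hg
    rw [smul_add, mem_stabilizer_iff.1 (h1 hg)] at h5
    exact add_left_cancel h5
  have h3 : y • w = w := ((h.eq_of_le h0 hv h1).symm.trans (h.eq_of_le h0 hw0 h2) ▸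
    (hyv : y ∈ stabilizer G v) : y ∈ stabilizer G w)
  rw [mul_smul, h3] at hw1
  exact hw0 (h.fix_central (hZ (hc g₀)) hg₀ hw1)

end HS

theorem HS.neg [Fact (Nat.Prime 2)] (h : HS 2 F V G) {z : G} (hz : z ∈ center G)
    (ho : orderOf z = 2) (w : V) : z • w = -w := by
  have := h.norm_central hz (fun e => by simp [e] at ho) (ho ▸ pow_orderOf_eq_one z) w
  rw [sum_range_succ, sum_range_one, pow_zero, one_smul, pow_one] at this
  exact eq_neg_of_add_eq_zero_right this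

theorem card_Fx_conj (g t : G) : Nat.card (Fx F V (g * t * g⁻¹)) = Nat.card (Fx F V t) :=
  Nat.card_congr
    { toFun := fun w => ⟨g⁻¹ • w.1, by
        have := w.2
        rw [mem_Fx, mul_smul, mul_smul, smul_eq_iff_eq_inv_smul] at this
        exact this⟩
      invFun := fun w => ⟨g • w.1, by rw [mem_Fx, smul_smul, inv_mul_cancel_right, mul_smul, w.2]⟩
      left_inv := fun w => by simp
      right_inv := fun w => by simp }

theorem isCompl_Fx (h2 : (2 : F) ≠ 0) {z y : G} (hz : ∀ w : V, z • w = -w) (hy : y * y = 1) :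
    IsCompl (Fx F V y) (Fx F V (z * y)) := by
  refine ⟨Submodule.disjoint_def.2 fun w h1 h3 => ?_, codisjoint_iff.2 (eq_top_iff.2 fun w _ => ?_)⟩
  · rw [mem_Fx, mul_smul, h1, hz, neg_eq_iff_add_eq_zero, ← two_smul F] at h3
    exact (smul_eq_zero.1 h3).resolve_left h2
  · have : w = (2 : F)⁻¹ • (w + y • w) + (2 : F)⁻¹ • (w - y • w) := by
      rw [← smul_add, add_add_sub_cancel, ← two_smul F, inv_smul_smul₀ h2]
    rw [this]
    refine Submodule.add_mem_sup (Submodule.smul_mem _ _ ?_) (Submodule.smul_mem _ _ ?_)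
    · rw [mem_Fx, smul_add, smul_smul, hy, one_smul, add_comm]
    · rw [mem_Fx, mul_smul, hz, smul_sub, smul_smul, hy, one_smul, neg_sub]

theorem card_sq (h2 : (2 : F) ≠ 0) {z y g : G} (hz : ∀ w : V, z • w = -w) (hy : y * y = 1)
    (hg : g * y * g⁻¹ = z * y) : Nat.card V = Nat.card (Fx F V y) ^ 2 := by
  rw [← Nat.card_congr (Submodule.prodEquivOfIsCompl _ _ (isCompl_Fx h2 hz hy)).toEquiv,
    Nat.card_prod, ← hg, card_Fx_conj, sq]

theorem ncard_Fx [Finite V] (t : G) : ((Fx F V t : Set V) \ {0}).ncard = Nat.card (Fx F V t) - 1 := by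
  rw [Set.ncard_diff_singleton_of_mem (Fx F V t).zero_mem]
  rfl

section two
variable [Fact (Nat.Prime 2)] [Finite V] (h : HS 2 F V G) {z y : G} (hz : z ∈ center G)
  (ho : orderOf z = 2)
include h hz ho

theorem swap (hy : ∀ g, g * y * g⁻¹ = y ∨ g * y * g⁻¹ = z * y) {v w : V} (hv : v ≠ 0) (hw : w ≠ 0)
    (h1 : v ∈ Fx F V y) (h2 : w ∈ Fx F V (z * y)) (hyy : y * y = 1) :
    (∃ g : G, g • v = w ∧ g • w = v) ∧
      ∀ g ∈ stabilizer G (v + w), (g • v = v ∧ g • w = w) ∨ (g • v = w ∧ g • w = v) := by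
  have hn := h.neg hz ho
  have hc := isCompl_Fx (F := F) (V := V) (by exact_mod_cast h.ch) hn hyy
  have hzz : z * z = 1 := by rw [← sq, ← ho, pow_orderOf_eq_one]
  have hcj : ∀ (g t : G) (x : V), x ∈ Fx F V t → g • x ∈ Fx F V (g * t * g⁻¹) := fun g t x hx => by
    rw [mem_Fx, smul_smul, inv_mul_cancel_right, mul_smul, hx]
  have hzy : ∀ g : G, g * (z * y) * g⁻¹ = z * (g * y * g⁻¹) := fun g => by
    rw [← mul_assoc, mem_center_iff.1 hz g]; group
  have key : ∀ g ∈ stabilizer G (v + w), (g • v = v ∧ g • w = w) ∨ (g • v = w ∧ g • w = v) := by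
    intro g hg
    have e := mem_stabilizer_iff.1 hg
    rw [smul_add] at e
    have a1 := hcj g _ _ h1
    have a2 := hcj g _ _ h2
    rw [hzy] at a2
    rcases hy g with h3 | h3 <;> rw [h3] at a1 a2
    · left
      have h4 : g • v - v = w - g • w := by rw [sub_eq_sub_iff_add_eq_add, e, add_comm]
      have h5 := Submodule.disjoint_def.1 hc.1 _ (sub_mem a1 h1) (h4 ▸ sub_mem h2 a2)
      rw [h5, eq_comm, sub_eq_zero] at h4
      exact ⟨sub_eq_zero.1 h5, h4.symm⟩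
    · right
      rw [← mul_assoc, hzz, one_mul] at a2
      have h4 : g • w - v = w - g • v := by rw [sub_eq_sub_iff_add_eq_add, add_comm, e, add_comm]
      have h5 := Submodule.disjoint_def.1 hc.1 _ (sub_mem a2 h1) (h4 ▸ sub_mem h2 a1)
      rw [h5, eq_comm, sub_eq_zero] at h4
      exact ⟨h4.symm, sub_eq_zero.1 h5⟩
  refine ⟨?_, key⟩
  by_contra hn'
  push Not at hn'
  have h3 : ∀ g ∈ stabilizer G (v + w), g • v = v ∧ g • w = w := fun g hg =>
    (key g hg).resolve_right fun h => hn' g h.1 h.2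
  have h0 : v + w ≠ 0 := fun e => hv (Submodule.disjoint_def.1 hc.1 _ h1 (by
    rw [eq_neg_of_add_eq_zero_left e]; exact neg_mem h2))
  have h4 : y ∈ stabilizer G w := (h.eq_of_le h0 hv fun g hg => (h3 g hg).1).symm.trans
    (h.eq_of_le h0 hw fun g hg => (h3 g hg).2) ▸ (h1 : y ∈ stabilizer G v)
  exact hw (Submodule.disjoint_def.1 hc.1 _ h4 h2)

theorem caseA_card (hy : ∀ g, g * y * g⁻¹ = y ∨ g * y * g⁻¹ = z * y) (hyy : y * y = 1) {g₀ : G}
    (hg : g₀ * y * g₀⁻¹ = z * y) {v : V} (hv : v ≠ 0) (h1 : v ∈ Fx F V y) :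
    ∃ j, Nat.card (Fx F V y) = 2 ^ j + 1 := by
  have hn := h.neg hz ho
  have hc := isCompl_Fx (F := F) (V := V) (by exact_mod_cast h.ch) hn hyy
  have hzz : z * z = 1 := by rw [← sq, ← ho, pow_orderOf_eq_one]
  have hcj : ∀ (g t : G) (x : V), x ∈ Fx F V t → g • x ∈ Fx F V (g * t * g⁻¹) := fun g t x hx => by
    rw [mem_Fx, smul_smul, inv_mul_cancel_right, mul_smul, hx]
  have hw := hcj g₀ _ _ h1
  rw [hg] at hw
  have hw0 : g₀ • v ≠ 0 := (smul_ne_zero_iff_ne g₀).2 hv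
  have horb : orbit G v = ((Fx F V y : Set V) \ {0}) ∪ ((Fx F V (z * y) : Set V) \ {0}) := by
    ext x
    constructor
    · rintro ⟨g, rfl⟩
      have a1 := hcj g _ _ h1
      rcases hy g with h3 | h3 <;> rw [h3] at a1
      · exact Or.inl ⟨a1, (smul_ne_zero_iff_ne g).2 hv⟩
      · exact Or.inr ⟨a1, (smul_ne_zero_iff_ne g).2 hv⟩
    · rintro (⟨hx, hx0⟩ | ⟨hx, hx0⟩)
      · obtain ⟨g, -, hg⟩ := (swap h hz ho hy hx0 hw0 hx hw hyy).1
        exact ⟨g * g₀, by simp only [mul_smul, hg]⟩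
      · obtain ⟨g, hg, -⟩ := (swap h hz ho hy hv hx0 h1 hx hyy).1
        exact ⟨g, hg⟩
  obtain ⟨n, hn⟩ := h.pg.card_orbit v
  rw [Nat.card_coe_set_eq, horb, Set.ncard_union_eq (Set.disjoint_left.2 fun x hx hx' =>
    hx.2 (Submodule.disjoint_def.1 hc.1 _ hx.1 hx'.1)), ncard_Fx, ncard_Fx, ← hg, card_Fx_conj] at hn
  have h3 : 0 < Nat.card (Fx F V y) := Nat.card_pos
  rcases n with _ | n
  · omega
  · exact ⟨n, by omega⟩

theorem caseA_iff (hy : ∀ g, g * y * g⁻¹ = y ∨ g * y * g⁻¹ = z * y) (hyy : y * y = 1) {g₀ : G}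
    (hg : g₀ * y * g₀⁻¹ = z * y) {v : V} (hv : v ≠ 0) (h1 : v ∈ Fx F V y)
    (hd : ∀ x ∈ Fx F V y, ∃ a : F, a • v = x) :
    ∃ e : V ≃ₗ[F] (Fin 2 → F), ∀ f : (Fin 2 → F) → (Fin 2 → F),
      (∃ g : G, ∀ x, f x = e (g • e.symm x)) ↔ ∃ a s : F, a ≠ 0 ∧ (s = 1 ∨ s = -1) ∧
        ((∀ x, f x = ![a * x 0, s * a⁻¹ * x 1]) ∨ (∀ x, f x = ![s * a⁻¹ * x 1, a * x 0])) := by
  have hn := h.neg hz ho
  have hc := isCompl_Fx (F := F) (V := V) (by exact_mod_cast h.ch) hn hyy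
  have hzz : z * z = 1 := by rw [← sq, ← ho, pow_orderOf_eq_one]
  have hcj : ∀ (g t : G) (x : V), x ∈ Fx F V t → g • x ∈ Fx F V (g * t * g⁻¹) := fun g t x hx => by
    rw [mem_Fx, smul_smul, inv_mul_cancel_right, mul_smul, hx]
  have hw := hcj g₀ _ _ h1
  rw [hg] at hw
  set w := g₀ • v with hwd
  have hw0 : w ≠ 0 := (smul_ne_zero_iff_ne g₀).2 hv
  have hyw : y • w = -w := by
    have := mem_Fx.1 hw
    rwa [mul_smul, hn, neg_eq_iff_eq_neg] at this
  have hd' : ∀ x ∈ Fx F V (z * y), ∃ a : F, a • w = x := fun x hx => by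
    have := hcj g₀⁻¹ _ _ hx
    rw [← hg, show g₀⁻¹ * (g₀ * y * g₀⁻¹) * g₀⁻¹⁻¹ = y by group] at this
    obtain ⟨a, ha⟩ := hd _ this
    exact ⟨a, by rw [hwd, ← smul_comm, ha, smul_inv_smul]⟩
  have hspan : ∀ x : V, ∃ a b : F, x = a • v + b • w := fun x => by
    obtain ⟨x1, hx1, x2, hx2, rfl⟩ := Submodule.mem_sup.1 (hc.sup_eq_top ▸ Submodule.mem_top (x := x))
    obtain ⟨a, rfl⟩ := hd _ hx1
    obtain ⟨b, rfl⟩ := hd' _ hx2
    exact ⟨a, b, rfl⟩
  let L : (Fin 2 → F) →ₗ[F] V := Fintype.linearCombination F ![v, w]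
  have hL : ∀ x, L x = x 0 • v + x 1 • w := fun x => by
    simp [L, Fintype.linearCombination_apply, Fin.sum_univ_two]
  have hbij : Function.Bijective L := by
    refine ⟨(injective_iff_map_eq_zero L).2 fun x hx => ?_, fun x => ?_⟩
    · rw [hL] at hx
      have h3 := Submodule.disjoint_def.1 hc.1 _ (Submodule.smul_mem _ (x 0) h1) (by
        rw [eq_neg_of_add_eq_zero_left hx]; exact neg_mem (Submodule.smul_mem _ _ hw))
      rw [h3, zero_add] at hx
      funext i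
      fin_cases i
      · exact (smul_eq_zero.1 h3).resolve_right hv
      · exact (smul_eq_zero.1 hx).resolve_right hw0
    · obtain ⟨a, b, rfl⟩ := hspan x
      exact ⟨![a, b], by simp [hL]⟩
  let e := (LinearEquiv.ofBijective L hbij).symm
  have he : ∀ (g : G) (x y' : Fin 2 → F), x 0 • g • v + x 1 • g • w = y' 0 • v + y' 1 • w →
      e (g • e.symm x) = y' := fun g x y' hh => by
    rw [LinearEquiv.symm_apply_eq]
    change g • L x = L y'
    rw [hL, hL, smul_add, smul_comm g, smul_comm g, hh]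
  have hone : ∀ g : G, g • v = v → g • w = w → g = 1 := fun g a b => h.ff g fun x => by
    obtain ⟨c, d, rfl⟩ := hspan x
    rw [smul_add, smul_comm g, smul_comm g, a, b]
  obtain ⟨⟨t, ht1, ht2⟩, hkey⟩ := swap h hz ho hy hv hw0 h1 hw hyy
  have hst : ∀ k : G, k • v = v → k • w = w ∨ k • w = -w := by
    intro k hk
    have h0 : v + w ≠ 0 := fun e => hv (Submodule.disjoint_def.1 hc.1 _ h1 (by
      rw [eq_neg_of_add_eq_zero_left e]; exact neg_mem hw))
    have h3 : (stabilizer G (v + w) : Set G) ⊆ {1, t} := fun g hg => by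
      rcases hkey g hg with ⟨a, b⟩ | ⟨a, b⟩
      · exact Or.inl (hone g a b)
      · exact Or.inr (inv_mul_eq_one.1 (hone (t⁻¹ * g) (by rw [mul_smul, a, ← ht1, inv_smul_smul])
          (by rw [mul_smul, b, inv_smul_eq_iff, ht2]))).symm
    have h4 : Nat.card (stabilizer G v) ≤ 2 := by
      rw [h.hs v _ hv h0]
      exact (Set.ncard_le_ncard h3).trans (Set.ncard_insert_le _ _ |>.trans (by simp))
    have hy1 : (1 : G) ≠ y := fun e => hw0 (Submodule.disjoint_def.1 hc.1 _ (by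
      rw [mem_Fx, ← e, one_smul]) hw)
    have h5 : ({1, y} : Set G) = stabilizer G v := Set.eq_of_subset_of_ncard_le (by
      rintro _ (rfl | rfl)
      · exact one_mem _
      · exact h1) (by rw [Set.ncard_pair hy1]; exact h4)
    rcases (h5 ▸ (hk : k ∈ (stabilizer G v : Set G)) : k ∈ ({1, y} : Set G)) with rfl | rfl
    · exact Or.inl (one_smul _ _)
    · exact Or.inr hyw
  have hex : ∀ a s : F, a ≠ 0 → (s = 1 ∨ s = -1) → ∃ g : G, g • v = a • v ∧ g • w = (s * a⁻¹) • w := by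
    intro a s ha hs
    obtain ⟨g, g1, g2⟩ := (swap h hz ho hy (smul_ne_zero ha hv) hw0 (Submodule.smul_mem _ a h1) hw
      hyy).1
    have g3 : g • v = a⁻¹ • w := by rw [← g1, smul_comm g, inv_smul_smul₀ ha]
    rcases hs with rfl | rfl
    · exact ⟨g * t, by rw [mul_smul, ht1, g2], by rw [mul_smul, ht2, g3, one_mul]⟩
    · exact ⟨g * t * y, by rw [mul_smul, h1, mul_smul, ht1, g2],
        by rw [mul_smul, hyw, smul_neg, mul_smul, ht2, g3, neg_one_mul, neg_smul]⟩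
  have hty : ∀ g : G, g • v ∈ Fx F V y → ∃ a s : F, a ≠ 0 ∧ (s = 1 ∨ s = -1) ∧
      g • v = a • v ∧ g • w = (s * a⁻¹) • w := by
    intro g hgv
    obtain ⟨a, ha⟩ := hd _ hgv
    have ha0 : a ≠ 0 := fun e => (smul_ne_zero_iff_ne g).2 hv (by rw [← ha, e, zero_smul])
    obtain ⟨k, k1, k2⟩ := hex a 1 ha0 (Or.inl rfl)
    rcases hst (k⁻¹ * g) (by rw [mul_smul, ← ha, ← k1, inv_smul_smul]) with h3 | h3 <;>
      rw [mul_smul, inv_smul_eq_iff] at h3
    · exact ⟨a, 1, ha0, Or.inl rfl, ha.symm, h3.trans k2⟩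
    · exact ⟨a, -1, ha0, Or.inr rfl, ha.symm, by
        rw [h3, smul_neg, k2, one_mul, neg_one_mul, neg_smul]⟩
  refine ⟨e, fun f => ⟨?_, ?_⟩⟩
  · rintro ⟨g, hf⟩
    have a1 := hcj g _ _ h1
    rcases hy g with h3 | h3 <;> rw [h3] at a1
    · obtain ⟨a, s, ha, hs, k1, k2⟩ := hty g a1
      exact ⟨a, s, ha, hs, Or.inl fun x => (hf x).trans (he _ _ _ (by
        simp [k1, k2, smul_smul, mul_comm]))⟩
    · have a2 := hcj g _ _ hw
      rw [← mul_assoc, mem_center_iff.1 hz g, mul_assoc z, mul_assoc z, h3, ← mul_assoc, hzz,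
        one_mul, ← ht1, smul_smul] at a2
      obtain ⟨a, s, ha, hs, k1, k2⟩ := hty _ a2
      rw [mul_smul, ht1] at k1
      rw [mul_smul, ht2] at k2
      have hs0 : s ≠ 0 := by rcases hs with rfl | rfl <;> simp
      refine ⟨s * a⁻¹, s, mul_ne_zero hs0 (inv_ne_zero ha), hs, Or.inr fun x =>
        (hf x).trans (he _ _ _ ?_)⟩
      have : s * (s * a⁻¹)⁻¹ = a := by field_simp
      rw [this]
      simp [k1, k2, smul_smul, mul_comm, add_comm]
  · rintro ⟨a, s, ha, hs, hf | hf⟩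
    · obtain ⟨g, k1, k2⟩ := hex a s ha hs
      exact ⟨g, fun x => (hf x).trans (he _ _ _ (by simp [k1, k2, smul_smul, mul_comm])).symm⟩
    · obtain ⟨g, k1, k2⟩ := hex a s ha hs
      refine ⟨t * g, fun x => (hf x).trans (he _ _ _ ?_).symm⟩
      rw [mul_smul, mul_smul, k1, k2, smul_comm t, smul_comm t, ht1, ht2]
      simp [smul_smul, mul_comm, add_comm]

omit hz ho in
theorem caseB {m : ℕ} {a b : G} (d : H3.DSQ m a b) [Nontrivial V]
    (hs : ∀ v : V, v ≠ 0 → stabilizer G v ≠ ⊥) :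
    ∃ t : G, t ∉ zpowers a ∧ t ^ 2 = 1 ∧ Nat.card V = Nat.card (Fx F V t) ^ 2 ∧ Fx F V t ≠ ⊥ ∧
      Nat.card (Fx F V t) + 1 = Nat.card {t : G // t ∉ zpowers a ∧ t ^ 2 = 1} := by
  classical
  have := Fintype.ofFinite G
  have := Fintype.ofFinite V
  have hn := h.neg d.z_mem_center d.orderOf_z
  have h1 : ∀ x ∈ zpowers a, ∀ v : V, v ≠ 0 → x • v = v → x = 1 := fun x hx v hv e => by
    by_contra h0
    exact hv (h.fix_central d.z_mem_center d.z_ne_one
      ((zpowers_le (H := stabilizer G v)).2 e (d.z_mem_zpowers hx h0)))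
  have h2 : ∀ v : V, v ≠ 0 → ∃ t, (t ∉ zpowers a ∧ t ^ 2 = 1) ∧ t • v = v := fun v hv => by
    obtain ⟨t, ht, ht1⟩ := (bot_or_exists_ne_one _).resolve_left (hs v hv)
    have h3 : t ∉ zpowers a := fun h => ht1 (h1 t h v hv ht)
    exact ⟨t, ⟨h3, h1 _ (sq t ▸ d.mul_mem_of_notMem h3 h3) v hv ((stabilizer G v).pow_mem ht 2)⟩, ht⟩
  have h3 : ∀ t : G, t ∉ zpowers a ∧ t ^ 2 = 1 → Nat.card V = Nat.card (Fx F V t) ^ 2 := by
    rintro t ⟨ht, ht2⟩
    obtain ⟨k, hk, hk4, -⟩ := d.exists_conj'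
    obtain ⟨m, rfl⟩ : ∃ m', m = m' + 1 := ⟨m - 1, by have := d.one_le; omega⟩
    refine card_sq (g := a ^ 2 ^ m) (by exact_mod_cast h.ch) hn (sq t ▸ ht2) ?_
    have e1 : t * a ^ 2 ^ m * t⁻¹ = (a ^ 2 ^ m)⁻¹ := by
      rw [← conj_pow, hk t ht, ← zpow_natCast, ← zpow_mul, eq_inv_iff_mul_eq_one, ← zpow_natCast,
        ← zpow_add, ← orderOf_dvd_iff_zpow_eq_one, d.ord]
      obtain ⟨c, hc⟩ := hk4
      exact ⟨c, by push_cast; rw [show k = 4 * c - 1 by omega]; ring⟩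
    have e2 : t * (a ^ 2 ^ m)⁻¹ * t⁻¹ = a ^ 2 ^ m := by
      rw [← conj_inv, e1, inv_inv]
    calc a ^ 2 ^ m * t * (a ^ 2 ^ m)⁻¹ = a ^ 2 ^ m * (t * (a ^ 2 ^ m)⁻¹ * t⁻¹) * t := by group
      _ = _ := by rw [e2, pow_succ 2, pow_mul, sq]
  obtain ⟨v, hv⟩ := exists_ne (0 : V)
  obtain ⟨t, ht, htv⟩ := h2 v hv
  have hne : Fx F V t ≠ ⊥ := fun e => hv ((Submodule.mem_bot F).1 (e ▸ htv))
  refine ⟨t, ht.1, ht.2, h3 t ht, hne, ?_⟩
  have h4 : (univ.erase (0 : V)) = (univ.filter fun t : G => t ∉ zpowers a ∧ t ^ 2 = 1).biUnion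
      fun t => (univ.filter fun w : V => t • w = w).erase 0 := by
    ext w
    simp only [mem_erase, mem_univ, and_true, mem_biUnion, mem_filter, true_and]
    exact ⟨fun hw => let ⟨t, h1, h2⟩ := h2 w hw; ⟨t, h1, hw, h2⟩, fun ⟨_, _, h, _⟩ => h⟩
  have h5 : ∀ s : G, s ∉ zpowers a ∧ s ^ 2 = 1 →
      #((univ.filter fun w : V => s • w = w).erase 0) = Nat.card (Fx F V t) - 1 := fun s hs => by
    rw [card_erase_of_mem (by simp), ← Nat.pow_left_injective two_ne_zero ((h3 s hs).symm.trans (h3 t ht)),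
      Nat.card_eq_fintype_card, Fintype.card_subtype]
    rfl
  have h6 := congrArg card h4
  rw [card_biUnion, sum_congr rfl fun s hs => h5 s (mem_filter.1 hs).2, sum_const, smul_eq_mul,
    card_erase_of_mem (mem_univ _), card_univ, ← Nat.card_eq_fintype_card, h3 t ht,
    ← Fintype.card_subtype, ← Nat.card_eq_fintype_card] at h6
  · have h7 : 1 < Nat.card (Fx F V t) := Finite.one_lt_card_iff_nontrivial.2
      (Submodule.nontrivial_iff_ne_bot.2 hne)
    obtain ⟨Q, hQ⟩ : ∃ Q, Nat.card (Fx F V t) = Q + 1 := ⟨_, (Nat.succ_pred_eq_of_pos (by omega)).symm⟩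
    rw [hQ] at h6 h7 ⊢
    refine Nat.eq_of_mul_eq_mul_right (show 0 < Q by omega) ?_
    rw [Nat.add_sub_cancel] at h6
    rw [← h6]
    have : (Q + 1) ^ 2 = (Q + 1 + 1) * Q + 1 := by ring
    omega
  · intro s hs s' hs' hne'
    rw [Function.onFun, disjoint_left]
    intro w hw hw'
    simp only [mem_erase, mem_filter, mem_univ, true_and, coe_filter, Set.mem_setOf_eq] at hw hw' hs hs'
    have h8 := h1 _ (d.mul_mem_of_notMem hs.1 hs'.1) w hw.1 (by rw [mul_smul, hw'.2, hw.2])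
    apply hne'
    rw [eq_inv_of_mul_eq_one_left h8, inv_eq_of_mul_eq_one_right (sq s' ▸ hs'.2)]

end two

theorem card_inv {m : ℕ} {a b c : G} (d : H3.DSQ m a b)
    (h : ∀ i : ℤ, (a ^ i * b) ^ 2 = 1 ↔ a ^ i ∈ zpowers c) (hc : c ∈ zpowers a) :
    Nat.card {t : G // t ∉ zpowers a ∧ t ^ 2 = 1} = orderOf c := by
  rw [← Nat.card_zpowers]
  refine (Nat.card_eq_of_bijective (fun u : zpowers c => (⟨u * b, ?_⟩ :
    {t : G // t ∉ zpowers a ∧ t ^ 2 = 1})) ⟨fun u u' e => ?_, fun t => ?_⟩).symm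
  · obtain ⟨i, hi⟩ := zpowers_le.2 hc u.2
    simp only at hi
    rw [← hi]
    exact ⟨d.zpow_mul_notMem i, (h i).2 (hi ▸ u.2)⟩
  · exact Subtype.ext (mul_right_cancel (congrArg Subtype.val e :))
  · obtain ⟨i, hi⟩ := d.exists_eq_zpow_mul t.2.1
    exact ⟨⟨a ^ i, (h i).1 (hi ▸ t.2.2)⟩, Subtype.ext hi.symm⟩

theorem main (q : ℕ) [hq : Fact q.Prime] {V : Type*} [AddCommGroup V] [Module (ZMod q) V] [Finite V]
    [Nontrivial V] [DistribMulAction G V] [SMulCommClass G (ZMod q) V] (p : ℕ) [hp : Fact p.Prime]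
    (hG : IsPGroup p G) (ff : ∀ g : G, (∀ v : V, g • v = v) → g = 1)
    (hs : ∀ v w : V, v ≠ 0 → w ≠ 0 → Nat.card (stabilizer G v) = Nat.card (stabilizer G w)) :
    ((IsCyclic G ∨ ∃ n : ℕ, Nonempty (G ≃* QuaternionGroup n)) ∧
      ∀ v : V, v ≠ 0 → ∀ g : G, g • v = v → g = 1) ∨
    (Nat.card V = q ^ 2 ∧ ∃ m : ℕ, q = 2 ^ m - 1 ∧
      (Nonempty (G ≃* DihedralGroup (2 ^ m)) ∨ (Cfsg.IsQuasiDihedral G ∧ Nat.card G = 2 ^ (m + 2)))) ∨
    (Nat.card V = q ^ 2 ∧ (∃ m : ℕ, q = 2 ^ m + 1) ∧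
      ∃ e : V ≃ₗ[ZMod q] (Fin 2 → ZMod q), ∀ f : (Fin 2 → ZMod q) → (Fin 2 → ZMod q),
        (∃ g : G, ∀ x, f x = e (g • e.symm x)) ↔
        ∃ a s : ZMod q, a ≠ 0 ∧ (s = 1 ∨ s = -1) ∧
          ((∀ v, f v = ![a * v 0, s * a⁻¹ * v 1]) ∨ (∀ v, f v = ![s * a⁻¹ * v 1, a * v 0]))) ∨
    (Nat.card V = 81 ∧ q = 3 ∧ p = 2) := by
  have hcard : ∀ W : Submodule (ZMod q) V, W ≠ ⊥ → ∃ d, 1 ≤ d ∧ Nat.card W = q ^ d ∧
      Module.finrank (ZMod q) W = d := fun W hW =>
    ⟨_, Submodule.one_le_finrank_iff.2 hW, by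
      rw [Module.natCard_eq_pow_finrank (K := ZMod q), Nat.card_zmod], rfl⟩
  rcases subsingleton_or_nontrivial G with hG1 | hG1
  · exact Or.inl ⟨Or.inl inferInstance, fun _ _ g _ => Subsingleton.elim _ _⟩
  have hpq : p ≠ q := by
    rintro rfl
    obtain ⟨d, hd, e, -⟩ := hcard ⊤ top_ne_bot
    rw [Nat.card_congr Submodule.topEquiv.toEquiv] at e
    obtain ⟨v, hv, hv0⟩ := hG.exists_fixed_point_of_prime_dvd_card_of_fixed_point V
      (e ▸ dvd_pow_self p (by omega)) (a := 0) (fun g => smul_zero g)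
    obtain ⟨g, hg⟩ := exists_ne (1 : G)
    refine hg (ff g fun w => ?_)
    by_cases hw : w = 0
    · rw [hw, smul_zero]
    have h1 : stabilizer G v = ⊤ := eq_top_iff.2 fun g _ => hv g
    have h2 : stabilizer G w = ⊤ :=
      (eq_of_le_of_card_ge le_top (by rw [← h1, hs v w hv0.symm hw]))
    exact (h2 ▸ mem_top g : g ∈ stabilizer G w)
  have h : HS p (ZMod q) V G := ⟨hG, fun e => hpq ((Nat.prime_dvd_prime_iff_eq hq.out hp.out).1
    ((ZMod.natCast_eq_zero_iff _ _).1 e)).symm, ff, hs⟩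
  by_cases hsr : ∀ v : V, v ≠ 0 → ∀ g : G, g • v = v → g = 1
  · refine Or.inl ⟨?_, hsr⟩
    rcases H3.exists_pair_of_pgroup hG with h1 | ⟨-, n, h1⟩ | ⟨x, y, hx, hxo, hyo, hxy⟩
    · exact Or.inl h1
    · exact Or.inr ⟨_, h1⟩
    · obtain ⟨u, hu, v, hv, e⟩ := h.exists_fix hx hxo (hyo ▸ pow_orderOf_eq_one y)
      exact absurd (eq_inv_of_mul_eq_one_right (hsr v hv _ e) ▸ inv_mem hu) hxy
  right
  have hst : ∀ v : V, v ≠ 0 → stabilizer G v ≠ ⊥ := fun v hv e => hsr fun w hw g hg => by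
    have := hs w v hw hv
    rw [e, card_bot, Subgroup.card_eq_one] at this
    exact mem_bot.1 (this ▸ hg)
  obtain ⟨z, -, hz, ho⟩ := H9.exists_mem_center_orderOf_eq hG (K := ⊤) top_ne_bot
  have hZ : zpowers z ≤ center G := zpowers_le.2 hz
  have hZn : (zpowers z).Normal := ⟨fun n hn g => by
    rwa [mem_center_iff.1 (hZ hn) g, mul_inv_cancel_right]⟩
  by_cases hA : ∀ A : Subgroup G, A.Normal → IsMulCommutative A → IsCyclic A
  · left
    have hnc : ¬ IsCyclic G := fun hc => by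
      obtain ⟨v, hv⟩ := exists_ne (0 : V)
      obtain ⟨g, hg, hg1⟩ := (bot_or_exists_ne_one _).resolve_left (hst v hv)
      exact hv (h.fix_central (mem_center_iff.2 fun x => hc.isMulCommutative.is_comm.comm x g) hg1 hg)
    obtain rfl : p = 2 := by
      by_contra hp2
      exact hnc (H3.isCyclic_of_normal_abelian_cyclic_odd hp2 hG hA)
    obtain ⟨m, a, b, h1, h2, h3, h4⟩ := H3.classify_of_normal_abelian_cyclic_two hG hA hnc
    have d : H3.DSQ m a b := ⟨h1, h2, h3, by omega, by tauto⟩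
    obtain ⟨t, ht, ht2, c1, c2, c3⟩ := caseB h d hst
    obtain ⟨k, hk, e, -⟩ := hcard _ c2
    have fin : ∀ n, 1 ≤ n → Nat.card {t : G // t ∉ zpowers a ∧ t ^ 2 = 1} = 2 ^ n →
        Nat.card V = q ^ 2 ∧ q = 2 ^ n - 1 := fun n hn e' => by
      rw [e, e'] at c3
      rcases Cfsg.Agent.S3784.result 2 q n k Nat.prime_two hq.out hn hk c3.symm with
        ⟨-, rfl, -, h5⟩ | ⟨h5, -⟩ | ⟨h5, -⟩
      · exact ⟨by rw [c1, e, pow_one], by omega⟩
      · exact absurd h5.symm hpq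
      · have : 2 ∣ 2 ^ n := dvd_pow_self 2 (by omega)
        omega
    have hsq : ∀ (i k : ℤ), b * a * b⁻¹ = a ^ k → (a ^ i * b) ^ 2 = a ^ (i * (k + 1)) * b ^ 2 :=
      fun i k hk => by
        rw [mul_add, mul_one, add_comm, zpow_add, mul_comm i, zpow_mul, ← hk, conj_zpow, sq, sq]; group
    rcases h4 with ⟨-, h5, h6⟩ | ⟨-, h5, h6⟩ | ⟨h4, h5, h6⟩
    · obtain ⟨e1, e2⟩ := fin (m + 1) (by omega) (by
        rw [card_inv d (c := a) (fun i => ?_) (mem_zpowers a), h2]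
        rw [hsq i (-1) (by rw [h6, zpow_neg_one]), h5]
        simp)
      exact ⟨e1, m + 1, e2, Or.inl (H3.nonempty_mulEquiv_dihedral_of_card h2 h5 h6 h3
        (by rw [h1]; ring))⟩
    · obtain ⟨i, rfl⟩ := d.exists_eq_zpow_mul ht
      rw [hsq i (-1) (by rw [h6, zpow_neg_one]), h5] at ht2
      exact absurd (by simpa using ht2) d.z_ne_one
    · obtain ⟨e1, e2⟩ := fin m (by omega) (by
        rw [card_inv d (c := a ^ 2) (fun i => ?_) (pow_mem (mem_zpowers a) 2), d.orderOf_sq]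
        rw [hsq i (2 ^ m - 1) (by
          rw [h6, ← zpow_natCast, Nat.cast_sub Nat.one_le_two_pow]; push_cast; rfl), h5, mul_one,
          sub_add_cancel, ← orderOf_dvd_iff_zpow_eq_one, h2]
        push_cast
        rw [pow_succ', mul_dvd_mul_iff_right (by positivity)]
        constructor
        · rintro ⟨j, rfl⟩
          exact ⟨j, by simp only; rw [zpow_mul, zpow_ofNat]⟩
        · rintro ⟨j, hj⟩
          simp only at hj
          rw [← zpow_natCast, ← zpow_mul, zpow_eq_zpow_iff_modEq, h2] at hj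
          have := (hj.of_dvd (m := 2) (by push_cast; exact dvd_pow_self 2 (by omega))).dvd
          push_cast at this
          omega)
      exact ⟨e1, m, e2, Or.inr ⟨⟨m + 1, by omega, h1, a, b, h2,
        orderOf_eq_prime h5 (fun h => h3 (h ▸ one_mem _)), h6⟩, h1⟩⟩
  right
  push Not at hA
  obtain ⟨A, hAn, hAc, hA⟩ := hA
  obtain ⟨K, hKn, hK⟩ := H2.exists_normal_pow_eq_one A p
  obtain ⟨y₀, hy₀, hy₀Z, -, hy₀c⟩ := H9.exists_central_step hG (N := zpowers z) (K := K) fun hle => by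
    obtain ⟨x, y, hx, hy, hxy⟩ := H3.exists_pair_of_comm_pgroup (hG.to_subgroup A) hA
    have h1 : ∀ x : A, orderOf x = p → zpowers (x : G) = zpowers z := fun x hx =>
      eq_of_le_of_card_ge (zpowers_le.2 (hle ((hK x).2 ⟨x.2, by
        rw [← hx, ← orderOf_coe, pow_orderOf_eq_one]⟩)))
        (by rw [Nat.card_zpowers, Nat.card_zpowers, ho, orderOf_coe, hx])
    obtain ⟨k, hk⟩ : (y : G) ∈ zpowers (x : G) := by rw [h1 x hx, ← h1 y hy]; exact mem_zpowers _
    exact hxy ⟨k, Subtype.ext hk⟩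
  obtain ⟨u, hu, v, hv, hyv⟩ := h.exists_fix hz ho ((hK _).1 hy₀).2
  have hcu : Commute u y₀ := (mem_center_iff.1 (hZ hu) y₀).symm
  set y := u * y₀ with hy
  have hy1 : y ≠ 1 := fun e => hy₀Z (eq_inv_of_mul_eq_one_right e ▸ inv_mem hu)
  have hyc : y ∉ center G := fun hc => hv (h.fix_central hc hy1 hyv)
  have hcm : ∀ g : G, ⁅g, y⁆ ∈ zpowers z := fun g => by
    have : ⁅g, y⁆ = ⁅y₀, g⁆⁻¹ := by
      rw [commutatorElement_inv, commutatorElement_def, commutatorElement_def, hy, ← mul_assoc g,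
        mem_center_iff.1 (hZ hu) g, mul_inv_rev, ← mul_assoc, mul_assoc u, mul_assoc u, mul_assoc u,
        ← mem_center_iff.1 (hZ hu), mul_inv_cancel_right]
    rw [this]; exact inv_mem (hy₀c g)
  obtain rfl := h.eq_two hz ho hyc hcm hv hyv
  have hyy : y * y = 1 := by
    rw [← sq, hcu.mul_pow, ((hK _).1 hy₀).2, mul_one]
    exact orderOf_dvd_iff_pow_eq_one.1 (ho ▸ orderOf_dvd_of_mem_zpowers hu)
  have hcj : ∀ g : G, g * y * g⁻¹ = y ∨ g * y * g⁻¹ = z * y := fun g => by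
    have h1 : ⁅g, y⁆ = 1 ∨ ⁅g, y⁆ = z := by
      obtain ⟨k, hk⟩ := hcm g
      simp only at hk
      rw [← hk, ← zpow_mod_orderOf, ho]
      rcases Int.emod_two_eq_zero_or_one k with e | e <;> simp [e]
    rw [commutatorElement_def, mul_inv_eq_one] at h1
    exact h1.imp_right mul_inv_eq_iff_eq_mul.1
  obtain ⟨g₀, hg₀⟩ : ∃ g, g * y * g⁻¹ = z * y := by
    by_contra hc; push Not at hc
    exact hyc (mem_center_iff.2 fun g => mul_inv_eq_iff_eq_mul.1 ((hcj g).resolve_right (hc g)))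
  obtain ⟨j, hj⟩ := caseA_card h hz ho hcj hyy hg₀ hv hyv
  have c1 := card_sq (F := ZMod q) (by exact_mod_cast h.ch) (h.neg hz ho) hyy hg₀
  obtain ⟨k, hk, e, hr⟩ := hcard (Fx (ZMod q) V y) fun e =>
    hv ((Submodule.mem_bot (ZMod q)).1 (e ▸ mem_Fx.2 hyv))
  rw [e] at hj c1
  have hj1 : 1 ≤ j := by
    by_contra h0
    obtain rfl : j = 0 := by omega
    exact hpq ((Nat.prime_dvd_prime_iff_eq hq.out hp.out).1 
      ((dvd_pow_self q (by omega)).trans hj.dvd)).symm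
  rcases Cfsg.Agent.S3784.result q 2 k j hq.out hp.out hk hj1 hj with
    ⟨h5, -⟩ | ⟨-, rfl, -, h5⟩ | ⟨h5, -⟩
  · exact absurd h5.symm hpq
  · refine Or.inl ⟨by rw [c1, pow_one], ⟨j, h5⟩, caseA_iff h hz ho hcj hyy hg₀ hv hyv fun x hx => ?_⟩
    obtain ⟨c, hc⟩ := (finrank_eq_one_iff_of_nonzero' (⟨v, hyv⟩ : Fx (ZMod q) V y)
      (fun e => hv (congrArg Subtype.val e))).1 hr ⟨x, hx⟩
    exact ⟨c, congrArg Subtype.val hc⟩
  · refine Or.inr ⟨by rw [c1, h5]; rfl, ?_, rfl⟩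
    exact (Nat.prime_dvd_prime_iff_eq hq.out Nat.prime_three).1
      (hq.out.dvd_of_dvd_pow (n := 2) (show q ∣ 9 from h5 ▸ dvd_pow_self q (by omega)))

end H18.HT
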