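/- Tower IT (row S4724), slot SET: the configuration exists. -/
import Cfsg.Agent.H45.ItSpec
import Cfsg.Agent.H2.PrRedA
import Cfsg.Agent.H29.Codeg

set_option autoImplicit false
set_option linter.unusedSectionVars false

namespace H18.ItSet

open Cfsg H28 H39 H87 H2.PR H45.It MulAction Subgroup Module
open scoped Pointwise

universe u v

variable {G : Type u} [Group G] [Finite G] {p e h : ℕ} [hp : Fact p.Prime]

/-- The local data with `x` in the complement. -/
theorem lo_shift {P E : Subgroup G} {x y : G} (L : Lo p e h P x y) (hZ : center G = ⊥) (hC : Cen P = P)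
    (h1 : P ⊔ E = Nor P) (h2 : P ⊓ E = ⊥) : ∃ x, Lo p e h P x y ∧ zpowers x = E ∧ orderOf x = e := by
  have hE : E ≤ Nor P := le_sup_right.trans h1.le
  obtain ⟨z, hz, a, ha, rfl⟩ : x ∈ (P : Set G) * (E : Set G) :=
    coe_mul_of_right_le_normalizer_left P E hE ▸ h1.ge L.x_mem
  have h3 : ∀ {b}, b ∈ P → b ∈ E → b = 1 := fun b1 b2 => mem_bot.1 (h2.le ⟨b1, b2⟩)
  have h4 : ∀ i : ℕ, (a ^ i)⁻¹ * (z * a) ^ i ∈ P := fun i => by
    induction i with
    | zero => simp
    | succ i ih =>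
      have := (mem_normalizer_iff''.1 (hE ha) _).1 (mul_mem ih hz)
      rwa [show a⁻¹ * ((a ^ i)⁻¹ * (z * a) ^ i * z) * a = (a ^ (i + 1))⁻¹ * (z * a) ^ (i + 1) by
        rw [pow_succ, pow_succ]; group] at this
  have L' : Lo p e h P a y := by
    refine ⟨L.card, L.mem, L.ne, ?_, L.oh, L.two, ?_, L.cen, fun n hn => ?_, L.idx, L.reg⟩
    · have h5 := hC.ge hz _ (pow_mem L.mem h)
      calc a * y * a⁻¹ = z⁻¹ * (z * a * y * (z * a)⁻¹ * z) := by group
        _ = y ^ h := by rw [L.xy, h5, inv_mul_cancel_left]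
    · have h5 := h4 e
      rw [mem_bot.1 (hZ.le L.xe), mul_one] at h5
      rw [h3 (inv_mem_iff.1 h5) (pow_mem ha e)]
      exact one_mem _
    · obtain ⟨i, hi, c, hc, rfl⟩ := L.nor n hn
      exact ⟨i, hi, _, mul_mem (hC.ge (h4 i)) hc, by group⟩
  refine ⟨a, L', le_antisymm (zpowers_le.2 ha) fun b hb => ?_, Nat.dvd_antisymm
    (orderOf_dvd_of_pow_eq_one (mem_bot.1 (hZ.le L'.xe))) (L'.pow_mem_cen_iff.1 (by simp))⟩
  obtain ⟨i, -, c, hc, rfl⟩ := L'.nor b (hE hb)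
  rw [h3 (hC.le hc) ((mul_mem_cancel_left (pow_mem ha i)).1 hb), mul_one]
  exact pow_mem (mem_zpowers a) i

/-- The values of a character of degree `p` vanishing on `P#`. -/
theorem val {P : Subgroup G} {x y : G} (L : Lo p e h P x y) (hx : x ^ e = 1) {ψ : G → ℂ}
    (hψ : IsCharacter G ψ) (h1 : ψ 1 = p) (h0 : ∀ z ∈ P, z ≠ 1 → ψ z = 0) :
    ∃ ω : ℂ, ω ^ e = 1 ∧ ∀ i, ¬ e ∣ i → ψ (x ^ i) = ω ^ i := by
  classical
  cases nonempty_fintype G
  have hc := hψ.isClassFunction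
  obtain ⟨n, ρ, rfl⟩ := hψ
  have p0 : (p : ℂ) ≠ 0 := Nat.cast_ne_zero.2 hp.out.ne_zero
  have cP : Fintype.card P = p := Nat.card_eq_fintype_card.symm.trans L.card
  obtain ⟨π, hπ⟩ : ∃ π : End ℂ (Fin n → ℂ), π = (p : ℂ)⁻¹ • ∑ z : P, ρ z := ⟨_, rfl⟩
  have ha : ∀ w : P, ρ w * π = π := fun w => by
    rw [hπ, mul_smul_comm, Finset.mul_sum, ← Equiv.sum_comp (Equiv.mulLeft w) fun z : P => ρ z]
    simp
  have hb : IsIdempotentElem π := by
    change π * π = π
    nth_rewrite 1 [hπ]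
    rw [smul_mul_assoc, Finset.sum_mul, Finset.sum_congr rfl fun w _ => ha w, Finset.sum_const, Finset.card_univ,
      cP, ← Nat.cast_smul_eq_nsmul ℂ, inv_smul_smul₀ p0]
  have hd : ρ x * π = π * ρ x := by
    rw [hπ, mul_smul_comm, smul_mul_assoc, Finset.mul_sum, Finset.sum_mul,
      ← Equiv.sum_comp (P.normalizerMonoidHom ⟨x, L.x_mem⟩).toEquiv fun z : P => ρ z * ρ x]
    refine congrArg _ (Finset.sum_congr rfl fun z _ => ?_)
    change _ = ρ (x * z * x⁻¹) * ρ x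
    rw [← map_mul, ← map_mul, inv_mul_cancel_right]
  have ht : ∀ g, LinearMap.trace ℂ _ (ρ g * π) = (p : ℂ)⁻¹ * ∑ z : P, ρ.character (g * z) := fun g => by
    rw [hπ, mul_smul_comm, Finset.mul_sum, map_smul, map_sum]
    simp only [← map_mul]
    rfl
  have t1 : LinearMap.trace ℂ _ π = 1 := by
    have := ht 1
    simp only [map_one, one_mul] at this
    rw [this, sum_prime_subgroup hp.out L.card h0, h1, mul_zero, add_zero, inv_mul_cancel₀ p0]
  have r1 : finrank ℂ (LinearMap.range π) = 1 := by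
    have := (LinearMap.IsIdempotentElem.isProj_range π hb).trace
    rw [t1] at this
    exact_mod_cast this.symm
  obtain ⟨v, -, hv⟩ := finrank_eq_one_iff'.1 r1
  obtain ⟨ω, hω⟩ := hv ⟨ρ x v, by
    obtain ⟨u, hu⟩ := v.2
    exact ⟨ρ x u, by rw [← End.mul_apply, ← hd, End.mul_apply, hu]⟩⟩
  have k1 : ρ x * π = ω • π := LinearMap.ext fun u => by
    obtain ⟨c, hc⟩ := hv ⟨π u, u, rfl⟩
    have e1 : c • (v : Fin n → ℂ) = π u := congrArg Subtype.val hc
    have e2 : ω • (v : Fin n → ℂ) = ρ x v := congrArg Subtype.val hω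
    rw [End.mul_apply, LinearMap.smul_apply, ← e1, map_smul, ← e2, smul_comm]
  have k2 : ∀ i : ℕ, ρ (x ^ i) * π = ω ^ i • π := fun i => by
    induction i with
    | zero => simp
    | succ i ih => rw [pow_succ, map_mul, mul_assoc, k1, mul_smul_comm, ih, smul_smul, pow_succ']
  have k3 : ∀ i : ℕ, LinearMap.trace ℂ _ (ρ (x ^ i) * π) = ω ^ i := fun i => by
    rw [k2, map_smul, t1, smul_eq_mul, mul_one]
  refine ⟨ω, by rw [← k3, hx, map_one, one_mul, t1], fun i hi => ?_⟩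
  rw [← k3, ht, Finset.sum_congr rfl fun (z : P) _ => (hc.eq_of_isConj
    (L.isConj (pow_mem L.x_mem i) (mt L.pow_mem_cen_iff.1 hi) z.2)).symm, Finset.sum_const, Finset.card_univ, cP,
    nsmul_eq_mul, inv_mul_cancel_left₀ p0]

theorem jobSet : JobSet.{u, v} := by
  intro G Ω _ _ _ _ _ _ p hp hΩ ⟨ψ, hψ, huni⟩ P E h1 h2 h3 h4
  cases nonempty_fintype G
  obtain ⟨y, c, hy, oy, hc⟩ := H90.exists_cycle_mem_sylow hΩ P
  have S := H37.selfC_of_cycle oy hc
  have cP : Nat.card (P : Subgroup G) = p := hy ▸ S.card_P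
  have hC : Cen (P : Subgroup G) = P := hy ▸ S.cen_P
  have ym : y ∈ (P : Subgroup G) := hy ▸ mem_zpowers y
  have p2 := hp.out.two_le
  have big : p ^ 2 ≤ Nat.card G := hψ ▸ ψ.2.charDegree_sq_le_card
  have ins : ¬ Group.IsSolvable G := fun _ => by
    have := Nat.le_of_dvd (Nat.mul_pos hp.out.pos (by omega)) (H37.card_dvd_of_solvable (G := G) hΩ)
    have h5 : p * (p - 1) < p * p := Nat.mul_lt_mul_of_pos_left (by omega) hp.out.pos
    rw [pow_two] at big
    omega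
  have hZ : center G = ⊥ := eq_bot_iff.2 fun z hz => by
    by_contra h5
    have h6 : (P : Subgroup G) ≤ center G :=
      (zpowers_eq_of_mem_prime cP (hC.le (center_le_centralizer _ hz)) h5).ge.trans (zpowers_le.2 hz)
    have h7 : (P : Subgroup G) = ⊤ := hC.symm.trans (centralizer_eq_top_iff_subset.2 h6)
    rw [h7, card_top] at cP
    nlinarith
  have e2 : 2 ≤ (Cen (P : Subgroup G)).relIndex (Nor (P : Subgroup G)) := by
    by_contra h5
    have h6 : (Cen (P : Subgroup G)).relIndex (Nor (P : Subgroup G)) ≠ 0 := index_ne_zero_of_finite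
    have h8 : (Cen (P : Subgroup G)).relIndex (Nor (P : Subgroup G)) = 1 := by omega
    have h7 : E ≤ P := (le_sup_right.trans h1.le).trans ((relIndex_eq_one.1 h8).trans hC.le)
    obtain rfl : E = ⊥ := (inf_eq_right.2 h7).symm.trans h2
    rw [normalizer_eq_top, card_top, card_bot] at h3
    nlinarith
  obtain ⟨h, x, L⟩ := exists_lo (P := P) ⟨cP, center_le_centralizer _, fun v hv => by
    rw [mem_bot.1 (hZ.le hv), orderOf_one, Nat.dvd_one]; exact hp.out.ne_one,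
    fun c hc => ⟨c, hC.le hc, 1, one_mem _, (mul_one c).symm⟩⟩ rfl e2 ym S.ne_one
  generalize (Cen (P : Subgroup G)).relIndex (Nor (P : Subgroup G)) = e at L e2
  obtain ⟨x, L, rfl, ox⟩ := lo_shift L hZ hC h1 h2
  have sing : ∀ z ∈ (P : Subgroup G), z ≠ 1 → (ψ : G → ℂ) z = 0 := fun z hz z1 =>
    H29.eq_zero_of_pow_factorization_dvd hp.out ψ.2 (by rw [← P.card_eq_multiplicity, cP, hψ])
      (orderOf_eq_of_mem_prime cP hz z1).symm.dvd
  obtain ⟨ω, w1, w2⟩ := val L (ox ▸ pow_orderOf_eq_one x) ψ.2.isCharacter ((coe_dg ψ).symm.trans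
    (congrArg _ hψ)) sing
  refine ⟨e, h, x, y, ψ, ?_, ins, hZ, L, ox, by rw [h3, Nat.card_zpowers, ox], fun g a ha a1 h5 => ?_, hψ, huni,
    sing, ω, w1, w2⟩
  · have : Nontrivial G := ⟨y, 1, S.ne_one⟩
    have : IsPreprimitive G Ω := IsPreprimitive.of_prime_card (hΩ ▸ hp.out)
    refine ⟨fun K hK => or_iff_not_imp_left.2 fun h0 => by_contra fun h5 => ?_⟩
    have := H89.isPretransitive_of_normal_of_primitive (Ω := Ω) K h0
    have h6 : y ∈ K := S.mem_of_dvd (by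
      rw [H89.card_eq_card_mul_card_stabilizer (G := K) (c 0), hΩ]; exact dvd_mul_right _ _) S.pow_eq
    have h7 : ∀ q : G ⧸ K, q ∈ zpowers (x : G ⧸ K) := fun q => by
      obtain ⟨g, rfl⟩ := QuotientGroup.mk_surjective q
      obtain ⟨n, hn, k, hk, rfl⟩ := mem_sup_of_normal_right.1 ((S.frattini h6).ge (mem_top g))
      obtain ⟨i, -, z, hz, rfl⟩ := L.nor n (hy ▸ hn)
      rw [QuotientGroup.mk_mul_of_mem _ hk, QuotientGroup.mk_mul_of_mem _
        ((hy.ge.trans (zpowers_le.2 h6)) (hC.le hz)), QuotientGroup.mk_pow]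
      exact pow_mem (mem_zpowers _) i
    have h8 : (x : G ⧸ K) ≠ 1 := fun h8 => h5 (eq_top_iff.2 fun g _ => (QuotientGroup.eq_one_iff g).1 (by
      simpa [h8] using h7 g))
    have : IsCyclic (G ⧸ K) := ⟨⟨x, h7⟩⟩
    let _ := IsCyclic.commGroup (α := G ⧸ K)
    obtain ⟨l, hl⟩ := CommGroup.exists_apply_ne_one_of_hasEnoughRootsOfUnity (G ⧸ K) ℂ h8
    have h9 := huni ⟨_, ψ.2.mul_linear (isCharacter_of_hom (l.comp (QuotientGroup.mk' K))) (by simp)⟩
      ((charDegree_congr (by simp)).trans hψ)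
    have h10 : (ψ : G → ℂ) x * l x = (ψ : G → ℂ) x := congrFun (congrArg Subtype.val h9) x
    have h11 := w2 1 (by rw [Nat.dvd_one]; omega)
    rw [pow_one, pow_one] at h11
    have h12 : ω ≠ 0 := fun h0 => by simp [h0, L.e_pos.ne'] at w1
    rw [h11, mul_eq_left₀ h12] at h10
    exact hl (Units.ext h10)
  · by_contra h6
    exact a1 (conj_eq_one_iff.1 (mem_bot.1 ((h4 g h6).le ⟨h5, a, ha, rfl⟩)))

end H18.ItSet
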