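import Cfsg.Agent.H2.KpSpec

/-! KP tower (S4202): `Two`, class numbers and a subgroup of index two. -/

set_option autoImplicit false

namespace H18.KpTwo

open H2.Kp Finset

variable {Γ : Type} [Group Γ]

open Classical in
/-- The number of elements of `B` commuting with `a`. -/
noncomputable def row (a : Γ) (B : Finset Γ) : ℕ := (B.filter fun b => Commute a b).card

theorem row_swap (A B : Finset Γ) : ∑ a ∈ A, row a B = ∑ b ∈ B, row b A := by
  classical
  simp only [row, card_filter]
  rw [sum_comm]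
  exact sum_congr rfl fun b _ => sum_congr rfl fun a _ => if_congr Commute.symm_iff rfl rfl

theorem row_le {a c : Γ} {A B : Finset Γ} (hc : Commute a c) (h : ∀ b ∈ A, c * b ∈ B) :
    row a A ≤ row a B := by
  classical
  refine card_le_card_of_injOn (c * ·) (fun b hb => ?_) fun _ _ _ _ e => mul_left_cancel e
  simp only [coe_filter, Set.mem_ofPred_eq] at hb ⊢
  exact ⟨h b hb.1, hc.mul_right hb.2⟩

open Classical in
theorem sum_row [Fintype Γ] (K : Subgroup Γ) :
    ∑ a ∈ univ.filter (· ∈ K), row a (univ.filter (· ∈ K)) = kc K * Nat.card K := by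
  rw [kc, kk, ← card_comm_eq_card_conjClasses_mul_card, Nat.card_eq_fintype_card,
    Fintype.card_subtype]
  simp only [row]
  rw [← card_sigma]
  refine (card_bij (fun p _ => ⟨(p.1 : Γ), (p.2 : Γ)⟩) (fun p hp => ?_) (fun p _ q _ e => ?_)
    fun q hq => ?_).symm
  · simp only [mem_sigma, mem_filter, mem_univ, true_and] at hp ⊢
    exact ⟨p.1.2, p.2.2, congrArg Subtype.val hp⟩
  · simp only [Sigma.mk.injEq, heq_eq_eq] at e
    exact Prod.ext (Subtype.ext e.1) (Subtype.ext e.2)
  · simp only [mem_sigma, mem_filter, mem_univ, true_and] at hq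
    exact ⟨(⟨q.1, hq.1⟩, ⟨q.2, hq.2.1⟩), mem_filter.2 ⟨mem_univ _, Subtype.ext hq.2.2⟩, rfl⟩

theorem two : Two := by
  intro Γ _ _ H Y h2 hY hy
  classical
  cases nonempty_fintype Γ
  have hn : H.Normal := Subgroup.normal_of_index_eq_two h2
  have e1 := sum_row H
  have e2 := sum_row (⊤ : Subgroup Γ)
  rw [kc_top, Subgroup.card_top, ← H.index_mul_card, h2] at e2
  simp only [Subgroup.mem_top, filter_true] at e2
  set A := univ.filter (· ∈ H) with hA
  set O := univ.filter (fun x => ¬ x ∈ H) with hO
  have sp : ∀ a, row a univ = row a A + row a O := fun a => by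
    simp only [row, card_filter]
    exact (sum_filter_add_sum_filter_not _ _ _).symm
  have oo : ∀ {c b}, c ∉ H → b ∈ O → c * b ∈ A := fun {c b} hc hb => mem_filter.2
    ⟨mem_univ _, (Subgroup.mul_mem_iff_of_index_two h2).2 (iff_of_false hc (mem_filter.1 hb).2)⟩
  have e3 : ∑ a ∈ O, row a O = ∑ a ∈ O, row a A := sum_congr rfl fun a ha => le_antisymm
    (row_le (Commute.refl a) fun b hb => oo (mem_filter.1 ha).2 hb)
    (row_le (Commute.refl a) fun b hb => mem_filter.2 ⟨mem_univ _, fun k =>
      (mem_filter.1 ha).2 ((Subgroup.mul_mem_cancel_right H (mem_filter.1 hb).2).1 k)⟩)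
  have e4 : (Y ×ˢ (univ : Finset Γ)).card = ∑ a ∈ A,
      ((Y ×ˢ (univ : Finset Γ)).filter fun p => p.2 * p.1 * p.2⁻¹ = a).card :=
    card_eq_sum_card_fiberwise fun p hp => mem_filter.2
      ⟨mem_univ _, hn.conj_mem _ (hY _ (mem_product.1 hp).1) _⟩
  have e5 : ∀ a ∈ A, row a O + ((Y ×ˢ (univ : Finset Γ)).filter
      fun p => p.2 * p.1 * p.2⁻¹ = a).card ≤ row a A := fun a _ => by
    rcases ((Y ×ˢ (univ : Finset Γ)).filter fun p => p.2 * p.1 * p.2⁻¹ = a).eq_empty_or_nonempty with
      k | ⟨⟨y, g⟩, k⟩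
    · rw [k, card_empty, add_zero]
      by_cases k1 : ∃ c, c ∉ H ∧ Commute a c
      · obtain ⟨c, c1, c2⟩ := k1
        exact row_le c2 fun b hb => oo c1 hb
      · rw [row, card_eq_zero.2 (filter_eq_empty_iff.2 fun b hb k2 => k1 ⟨b, (mem_filter.1 hb).2, k2⟩)]
        exact Nat.zero_le _
    · simp only [mem_filter, mem_product, mem_univ, and_true] at k
      have k1 : row a O = 0 := card_eq_zero.2 (filter_eq_empty_iff.2 fun b hb k2 => by
        have := (hy y k.1 y k.1 (g⁻¹ * b * g) (by
          calc _ = g⁻¹ * (b * (g * y * g⁻¹)) * b⁻¹ * g := by group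
            _ = y := by rw [k.2, ← k2.eq, ← k.2]; group)).2
        exact (mem_filter.1 hb).2 (by simpa [mul_assoc] using hn.conj_mem _ this g))
      rw [← add_zero (row a A), ← k1, ← sp, k1, zero_add]
      refine card_le_card_of_injOn (fun p => p.2 * g⁻¹) (fun p hp => ?_) fun p hp q hq e => ?_
      · simp only [coe_filter, mem_product, mem_univ, and_true, Set.mem_ofPred_eq, true_and] at hp ⊢
        have := (hy p.1 hp.1 y k.1 (g⁻¹ * p.2) (by
          calc _ = g⁻¹ * (p.2 * p.1 * p.2⁻¹) * g := by group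
            _ = y := by rw [hp.2, ← k.2]; group)).1
        change a * _ = _ * a
        conv_lhs => rw [← hp.2]
        rw [← k.2, this]
        group
      · simp only [coe_filter, mem_product, mem_univ, and_true, Set.mem_ofPred_eq] at hp hq
        have e' : p.2 = q.2 := mul_right_cancel e
        exact Prod.ext (hy _ hp.1 _ hq.1 1 (by
          have := hp.2.trans hq.2.symm
          rw [e'] at this
          simpa using this)).1 e'
  have e6 := sum_le_sum e5
  rw [sum_add_distrib, ← e4, card_product, card_univ, ← Nat.card_eq_fintype_card,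
    ← H.index_mul_card, h2, e1] at e6
  rw [← sum_filter_add_sum_filter_not univ (· ∈ H), ← hA, ← hO] at e2
  simp only [sp, sum_add_distrib] at e2
  rw [e3, row_swap O A, e1] at e2
  have hp : 0 < Nat.card H := Nat.card_pos
  refine Nat.le_of_mul_le_mul_right (c := 2 * Nat.card H) ?_ (by omega)
  rw [add_mul, ← e2]
  nlinarith

theorem jobTwo (_ : KB) : Two := two

end H18.KpTwo
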