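import Cfsg.Agent.H62.QTSec
import Cfsg.Agent.H48.AutRank2
import Cfsg.Agent.H48.Meta
import Cfsg.Agent.H49.ElemAbRep
import Cfsg.Agent.H18.FpfHom
import Cfsg.Agent.H14.FStar
import Cfsg.Agent.H98.Subnormal

/-! Quasithin tower, `JobXi`, part 1: the data `PD` and the action on odd groups of rank at most two. -/

set_option autoImplicit false

namespace H18.QT

open Cfsg Subgroup
open scoped commutatorElement

/-- `P` is `E_{p²}` or `p^{1+2}` and `S` is irreducible on the Frattini quotient. -/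
structure PD {Y : Type*} [Group Y] (p : ℕ) (S P : Subgroup Y) : Prop where
  nor : S ≤ normalizer (P : Set Y)
  exp : ∀ x ∈ P, x ^ p = 1
  card : (Nat.card P = p ^ 2 ∧ ⁅P, P⁆ = ⊥) ∨ (Nat.card P = p ^ 3 ∧ ⁅P, P⁆ ≠ ⊥)
  irr : ∀ U : Subgroup Y, U ≤ P → S ≤ normalizer (U : Set Y) → U ≤ ⁅P, P⁆ ∨ P ≤ U

variable {Y : Type*} [Group Y] {p : ℕ} {S P : Subgroup Y}

theorem card_der_le [Finite Y] [hp : Fact p.Prime] (h : Nat.card P = p ^ 3) :
    Nat.card ↥⁅P, P⁆ ≤ p ∧ ⁅⁅P, P⁆, P⁆ = ⊥ := by
  have hP : IsPGroup p P := IsPGroup.of_card h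
  have h1 : Nat.card (commutator P) ≤ p := by
    simpa using H48.card_commutator_le (k := 1) hP h.le
  have h2 := H48.commutator_top_eq_bot_of_card_le hP _ h1
  constructor
  · rwa [← map_subtype_commutator, card_map_of_injective P.subtype_injective]
  · have := congrArg (map P.subtype) h2
    rwa [map_commutator, map_subtype_commutator, H98.map_subtype_top, Subgroup.map_bot] at this

namespace PD

theorem isPGroup (h : PD p S P) : IsPGroup p P := fun x => ⟨1, Subtype.ext (by simpa using h.exp x x.2)⟩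

variable [Finite Y] [hp : Fact p.Prime]

theorem der (h : PD p S P) : Nat.card ↥⁅P, P⁆ ≤ p ∧ ⁅⁅P, P⁆, P⁆ = ⊥ := by
  rcases h.card with ⟨-, h1⟩ | ⟨h1, -⟩
  · rw [h1]
    exact ⟨by simpa using hp.out.one_lt.le, commutator_bot_left _⟩
  · exact card_der_le h1

theorem sq_le (h : PD p S P) : p ^ 2 ≤ Nat.card P := by
  rcases h.card with ⟨h1, -⟩ | ⟨h1, -⟩
  · exact h1.ge
  · exact h1 ▸ Nat.pow_le_pow_right hp.out.pos (by norm_num)

theorem ncyc (h : PD p S P) {x : Y} (hx : x ∈ P) : ¬ P ≤ zpowers x ⊔ ⁅P, P⁆ := by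
  intro hle
  have hz := commutator_eq_bot_iff_le_centralizer.1 h.der.2
  have h1 : P ≤ centralizer {x} := hle.trans (sup_le (zpowers_le.2 (mem_centralizer_singleton_iff.2 rfl))
    fun z hz' => mem_centralizer_singleton_iff.2 (hz hz' x hx).symm)
  have h2 : ⁅P, P⁆ = ⊥ := commutator_eq_bot_iff_le_centralizer.2 (hle.trans (sup_le
    (zpowers_le.2 fun y hy => mem_centralizer_singleton_iff.1 (h1 hy)) hz))
  rw [h2, sup_bot_eq] at hle
  have h3 := (h.sq_le.trans (card_le_of_le hle)).trans_eq (Nat.card_zpowers x)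
  have h4 := Nat.le_of_dvd hp.out.pos (orderOf_dvd_of_pow_eq_one (h.exp x hx))
  have := hp.out.one_lt
  nlinarith

theorem le_or (h : PD p S P) {C : Subgroup Y} (hC : S ≤ normalizer (C : Set Y)) :
    P ⊓ C ≤ ⁅P, P⁆ ∨ P ≤ C :=
  (h.irr _ inf_le_left ((le_inf h.nor hC).trans inf_normalizer_le_normalizer_inf)).imp_right
    fun k => k.trans inf_le_right

theorem le_ker (h : PD p S P) {Q : Type*} [Group Q] (φ : Y →* Q) (hc : IsCyclic (P.map φ)) :
    P ≤ φ.ker := by
  refine (h.le_or le_normalizer_of_normal).resolve_left fun k => ?_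
  obtain ⟨g, hg⟩ := H48.isCyclic_iff_zpowers.1 hc
  obtain ⟨x, hx, rfl⟩ : g ∈ P.map φ := hg ▸ mem_zpowers g
  refine h.ncyc hx fun y hy => ?_
  obtain ⟨n, hn⟩ : φ y ∈ zpowers (φ x) := hg ▸ mem_map_of_mem φ hy
  have : (x ^ n)⁻¹ * y ∈ ⁅P, P⁆ := k (mem_inf.2 ⟨P.mul_mem (P.inv_mem (P.zpow_mem hx n)) hy, by
    rw [MonoidHom.mem_ker, map_mul, map_inv, map_zpow, ← hn, inv_mul_cancel]⟩)
  simpa using mul_mem_sup (zpow_mem_zpowers x n) this

omit [Finite Y] hp in
theorem map (h : PD p S P) {Z : Type*} [Group Z] (f : Y →* Z) (hf : ∀ a ∈ P, f a = 1 → a = 1) :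
    PD p (S.map f) (P.map f) := by
  refine ⟨(map_mono h.nor).trans (le_normalizer_map f), ?_, ?_, fun U hU hn => ?_⟩
  · rintro _ ⟨x, hx, rfl⟩
    rw [← map_pow, h.exp x hx, map_one]
  · rw [H97.QT.card_map_of_inf_ker f P hf, ← map_commutator]
    rcases h.card with ⟨h1, h2⟩ | ⟨h1, h2⟩
    · exact Or.inl ⟨h1, by rw [h2, Subgroup.map_bot]⟩
    · refine Or.inr ⟨h1, fun k => h2 (eq_bot_iff.2 fun x hx => ?_)⟩
      exact hf x (commutator_le_self P hx) ((Subgroup.map_eq_bot_iff _).1 k hx)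
  · have hn' : S ≤ normalizer ((U.comap f : Subgroup Y) : Set Y) :=
      (map_le_iff_le_comap.1 hn).trans (le_normalizer_comap f)
    rcases h.irr _ inf_le_left ((le_inf h.nor hn').trans inf_normalizer_le_normalizer_inf) with k | k
    · left
      intro u hu
      obtain ⟨x, hx, rfl⟩ := hU hu
      rw [← map_commutator]
      exact mem_map_of_mem f (k ⟨hx, hu⟩)
    · exact Or.inr (map_le_iff_le_comap.2 (k.trans inf_le_right))

omit [Finite Y] hp in
theorem of_map {Z : Type*} [Group Z] {f : Y →* Z} (hf : Function.Injective f)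
    (h : PD p (S.map f) (P.map f)) : PD p S P := by
  refine ⟨?_, fun x hx => hf ?_, ?_, fun U hU hn => ?_⟩
  · have := (map_le_iff_le_comap.1 h.nor).trans (le_normalizer_comap f)
    rwa [comap_map_eq_self_of_injective hf] at this
  · rw [map_pow, h.exp _ (mem_map_of_mem f hx), map_one]
  · have := h.card
    rwa [card_map_of_injective hf, ← map_commutator, Ne, map_eq_bot_iff_of_injective _ hf] at this
  · have := h.irr _ (map_mono hU) ((map_mono hn).trans (le_normalizer_map f))
    rwa [← map_commutator, map_le_map_iff_of_injective hf, map_le_map_iff_of_injective hf] at this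

end PD

theorem mem_of_cent [Finite Y] [hp : Fact p.Prime] (h2 : p ≠ 2) (hr : PRankLE p 2 Y) {A : Subgroup Y}
    (hA : ∀ x ∈ A, x ^ p = 1) (hc : p ^ 2 ≤ Nat.card A) {w : Y} (hw : w ^ p = 1)
    (hcw : w ∈ centralizer (A : Set Y)) : w ∈ A := by
  have hAp : IsPGroup p A := fun x => ⟨1, Subtype.ext (by simpa using hA x x.2)⟩
  have hnc : ¬ IsCyclic A := fun k => by
    have := H48.card_le_of_cyclic_of_exponent' k hp.out.pos hA
    have := hp.out.one_lt
    nlinarith
  obtain ⟨E, -, hE, hEc⟩ := H48.exists_normal_elemAb_sq h2 hAp hnc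
  have hE' := H97.QT.ea_map A.subtype hE
  rw [← card_map_of_injective A.subtype_injective] at hEc
  have hle := map_subtype_le E
  generalize E.map A.subtype = B at hE' hEc hle
  have hB := H9.isMulCommutative_iff_forall.1 hE'.1
  have hcm : ⁅zpowers w, B⁆ = ⊥ := commutator_eq_bot_iff_le_centralizer.2
    (zpowers_le.2 (centralizer_le hle hcw))
  have hcm' := H14.commutator_eq_bot_iff_comm.1 hcm
  have h3 : Nat.card ↥(zpowers w ⊔ B) ≤ p ^ 2 := by
    refine hr _ (H9.isMulCommutative_iff_forall.2 fun x hx y hy => ?_) fun x hx => ?_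
    · obtain ⟨a, ha, b, hb, rfl⟩ := H14.mem_sup_of_commutator_eq_bot hcm hx
      obtain ⟨c, hc, d, hd, rfl⟩ := H14.mem_sup_of_commutator_eq_bot hcm hy
      obtain ⟨m, rfl⟩ := mem_zpowers_iff.1 ha
      obtain ⟨n, rfl⟩ := mem_zpowers_iff.1 hc
      exact (((Commute.refl w).zpow_zpow m n).mul_right (hcm' _ ha _ hd)).mul_left
        ((Commute.symm (hcm' _ hc _ hb)).mul_right (hB _ hb _ hd))
    · obtain ⟨a, ha, b, hb, rfl⟩ := H14.mem_sup_of_commutator_eq_bot hcm hx
      rw [Commute.mul_pow (hcm' _ ha _ hb), hE'.2 b hb, mul_one]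
      obtain ⟨m, rfl⟩ := mem_zpowers_iff.1 ha
      rw [← zpow_natCast, ← zpow_mul, mul_comm, zpow_mul, zpow_natCast, hw, one_zpow]
  have h4 : B = zpowers w ⊔ B := eq_of_le_of_card_ge le_sup_right (hEc ▸ h3)
  exact hle (h4 ▸ mem_sup_left (mem_zpowers w))

/-! ### `GL₂` -/

theorem sq_zero_of_det {F V : Type*} [Field F] [AddCommGroup V] [Module F V] [FiniteDimensional F V]
    (hV : Module.finrank F V ≤ 2) (f : Module.End F V) (hd : LinearMap.det f = 1) {v : V} (hv : v ≠ 0)
    (hf : f v = v) : (f - 1) * (f - 1) = 0 := by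
  rcases hV.lt_or_eq with h | h
  · have : f = 1 := by
      ext w
      have : Nontrivial V := ⟨v, 0, hv⟩
      have h1 : Module.finrank F V = 1 := by
        have := Module.finrank_pos (R := F) (M := V); omega
      obtain ⟨c, rfl⟩ := (finrank_eq_one_iff_of_nonzero' v hv).1 h1 w
      simp [hf]
    simp [this]
  · let b := Module.finBasisOfFinrankEq F V h
    have h0 : LinearMap.det (f - 1) = 0 := by
      by_contra k
      have := (LinearMap.isUnit_iff_ker_eq_bot _).1 ((LinearMap.isUnit_iff_isUnit_det _).2 (Ne.isUnit k))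
      exact hv ((Submodule.eq_bot_iff _).1 this v (by simp [hf]))
    apply (LinearMap.toMatrixAlgEquiv b).injective
    rw [← LinearMap.det_toMatrix b] at hd h0
    rw [map_sub, LinearMap.toMatrix_one] at h0
    rw [map_mul, map_sub, map_one, map_zero]
    change (LinearMap.toMatrix b b f - 1) * (LinearMap.toMatrix b b f - 1) = 0
    generalize LinearMap.toMatrix b b f = M at hd h0
    rw [Matrix.det_fin_two] at hd h0
    simp [Matrix.one_apply] at h0
    ext i j
    fin_cases i <;> fin_cases j <;> simp [Matrix.mul_apply, Fin.sum_univ_two, Matrix.one_apply]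
    · linear_combination (M 0 0 - 1) * hd - (M 0 0) * h0
    · linear_combination (M 0 1) * (hd - h0)
    · linear_combination (M 1 0) * (hd - h0)
    · linear_combination (M 1 1 - 1) * hd - (M 1 1) * h0

/-- The odd `p`-subgroups of `SL₂(r)` are cyclic. -/
theorem gl2 {V : Type*} [Group V] [Finite V] {r : ℕ} [hr : Fact r.Prime] (hV : H49.IsEA r V)
    (hc : Nat.card V ≤ r ^ 2) : ∃ d : MulAut V →* (ZMod r)ˣ, ∀ (p : ℕ) [Fact p.Prime], p ≠ 2 →
      ∀ E : Subgroup (MulAut V), E ≤ d.ker → IsPGroup p E → IsCyclic E := by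
  let ρ := hV.rep (MonoidHom.id (MulAut V))
  refine ⟨(LinearMap.det.comp ρ).toHomUnits, fun p hp h2 E hE hEp => ?_⟩
  have hVp : IsPGroup r V := H48.isPGroup_of_pow_eq_one hV.pow
  by_cases hpr : p = r
  · subst hpr
    have h1 := H62.QT.index_ker_dvd hVp hc hEp E.subtype
    rw [ker_subtype, index_bot] at h1
    rcases (Nat.dvd_prime hr.out).1 h1 with h | h
    · have : Subsingleton E := (Nat.card_eq_one_iff_unique.1 h).1
      infer_instance
    · exact isCyclic_of_prime_card h
  rcases subsingleton_or_nontrivial V with hs | hs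
  · have : Subsingleton (MulAut V) := ⟨fun a b => MulEquiv.ext fun x => Subsingleton.elim _ _⟩
    infer_instance
  refine H18.isCyclic_of_fpf_hom E.subtype (fun a ha w hw => ?_) h2 hEp
  by_contra hw1
  have hd : LinearMap.det (ρ a) = 1 := by
    simpa using congrArg Units.val (MonoidHom.mem_ker.1 (hE a.2))
  have h0 := sq_zero_of_det (hV.finrank_le_of_card_le hc) (ρ a) hd (v := hV.of w)
    (fun k => hw1 (hV.of_eq_zero.1 k)) (by rw [hV.rep_of]; exact congrArg _ hw)
  have h1 : ∀ n : ℕ, ρ a ^ n = 1 + (n : ZMod r) • (ρ a - 1) := by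
    intro n
    generalize ρ a = f at h0
    obtain ⟨g, rfl⟩ : ∃ g, f = g + 1 := ⟨f - 1, by simp⟩
    rw [add_sub_cancel_right] at h0 ⊢
    induction n with
    | zero => simp
    | succ n ih =>
      rw [pow_succ, ih]
      simp only [add_mul, mul_add, smul_mul_assoc, h0, Nat.cast_succ, add_smul]
      simp only [one_mul, mul_one, smul_zero, one_smul, add_zero]
      abel
  have h3 : (a : MulAut V) ^ r = 1 := by
    have := h1 r
    rw [ZMod.natCast_self, zero_smul, add_zero, ← map_pow] at this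
    exact (hV.rep_eq_one_iff _ _).1 this
  obtain ⟨k, hk⟩ := hEp a
  have h4 := Nat.dvd_gcd (orderOf_dvd_of_pow_eq_one hk)
    (orderOf_dvd_of_pow_eq_one (Subtype.ext h3 : a ^ r = 1))
  rw [((Nat.coprime_primes hp.out hr.out).2 hpr).pow_left k, Nat.dvd_one, orderOf_eq_one_iff] at h4
  exact ha h4

theorem rep2 {R : Type*} [Group R] [Finite R] {r : ℕ} [hp : Fact r.Prime] (hp2 : r ≠ 2) (hG : IsPGroup r R)
    (hr : PRankLE r 2 R) : ∃ (H : Subgroup R) (ψ : MulAut R →* MulAut (Abelianization H)),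
      H49.IsEA r (Abelianization H) ∧ Nat.card (Abelianization H) ≤ r ^ 2 ∧
      ∀ a : MulAut R, (orderOf a).Coprime r → ψ a = 1 → a = 1 := by
  obtain ⟨H, hH, hexp, hcomm, -, hfaith⟩ := H9.exists_characteristic_exponent_p_faithful hp2 hG
  have hHp := hG.to_subgroup H
  have hexp' : ∀ x : H, x ^ r = 1 := fun x => Subtype.ext (by simpa using hexp x x.2)
  have h2 : commutator H ≤ center H := by
    rw [commutator_def, commutator_le]
    intro x _ y _
    rw [mem_center_iff]
    intro z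
    exact Subtype.ext ((hcomm x x.2 y).2 z z.2)
  refine ⟨H, (H48.autAb H).comp (MulAut.characteristic H), ⟨mul_comm, fun v => ?_⟩, ?_, fun a ha h => ?_⟩
  · obtain ⟨x, rfl⟩ := QuotientGroup.mk_surjective v
    show (Abelianization.of x) ^ r = 1
    rw [← map_pow, hexp', map_one]
  · have h3 : Nat.card (Abelianization H) * Nat.card (commutator H) = Nat.card H :=
      (card_eq_card_quotient_mul_card_subgroup _).symm
    by_cases hc : commutator H = ⊥
    · rw [hc, card_bot, mul_one] at h3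
      rw [h3]
      exact hr H ((commutator_eq_bot_iff H).mp hc) hexp
    · have h4 := H9.mul_card_le_of_lt hHp (bot_lt_iff_ne_bot.mpr hc)
      rw [card_bot, mul_one] at h4
      have h5 := H48.card_le_cube_of_exponent' hr hexp
      rw [← h3, pow_succ] at h5
      exact Nat.le_of_mul_le_mul_right ((Nat.mul_le_mul_left _ h4).trans h5) hp.out.pos
  · refine hfaith _ ha fun x hx => ?_
    have h7 := H48.eq_one_of_autAb_eq_one hHp h2
      (Nat.Coprime.coprime_dvd_left (orderOf_map_dvd (MulAut.characteristic H) _) ha) h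
    exact congrArg (fun f : MulAut H => ((f ⟨x, hx⟩ : H) : R)) h7

/-- `P` acts on a normal odd `r`-subgroup of rank at most two inside a normal `r`-group. -/
theorem PD.cent_rank [Finite Y] [Fact p.Prime] (h : PD p S P) (h2 : p ≠ 2) {r : ℕ} [Fact r.Prime]
    (hr2 : r ≠ 2) (R : Subgroup Y) [R.Normal] (hR : IsPGroup r R) (hr : PRankLE r 2 R) :
    ∃ C : Subgroup Y, C.Normal ∧ P ≤ C ∧
      ∀ c ∈ C, (orderOf c).Coprime r → c ∈ centralizer (R : Set Y) := by
  obtain ⟨H, ψ, hV, hc, hψ⟩ := rep2 hr2 hR hr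
  obtain ⟨d, hd⟩ := gl2 hV hc
  let φ := ψ.comp (MulAut.conjNormal (H := R))
  have h1 : P ≤ (d.comp φ).ker := h.le_ker _ inferInstance
  refine ⟨φ.ker, inferInstance, h.le_ker _ (hd p h2 _ (map_le_iff_le_comap.2 h1) (h.isPGroup.map φ)),
    fun c hc' ho x hx => ?_⟩
  have := hψ _ (Nat.Coprime.coprime_dvd_left (orderOf_map_dvd _ _) ho) hc'
  have := congrArg (fun f : MulAut R => ((f ⟨x, hx⟩ : R) : Y)) this
  exact (mul_inv_eq_iff_eq_mul.1 this).symm

end H18.QT
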