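import Cfsg.Agent.H18.QTXi1
import Cfsg.Agent.H7.MinAct
import Cfsg.Agent.H98.FStarP
import Cfsg.Agent.H1.InvSylow
import Cfsg.Agent.H4.Product

/-! Quasithin tower, `JobXi`, part 2: `P` centralizes the components. -/

set_option autoImplicit false

namespace H18.QT

open Cfsg Subgroup H98 H97.QT
open scoped commutatorElement

universe u

section Act

variable {G : Type*} [Group G] {L : Subgroup G} (Z : Subgroup L) [Z.Characteristic]

/-- The action of `N(L)` on `L / Z`. -/
def act : normalizer (L : Set G) →* MulAut (L ⧸ Z) :=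
  MonoidHom.mk' (fun n => QuotientGroup.congr _ _ (L.normalizerMonoidHom n)
    (characteristic_iff_map_eq.1 inferInstance _)) fun a b => by
      ext x
      obtain ⟨x, rfl⟩ := QuotientGroup.mk_surjective x
      rw [map_mul]
      rfl

theorem act_mk (n : normalizer (L : Set G)) (l : L) : act Z n (QuotientGroup.mk' Z l) =
    QuotientGroup.mk' Z ⟨n * l * (n : G)⁻¹, conj_mem_of_mem_normalizer n.2 l.2⟩ := rfl

theorem act_of_mem (l : L) :
    act Z ⟨l, le_normalizer l.2⟩ = MulAut.conj (QuotientGroup.mk' Z l) := by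
  ext x
  obtain ⟨x, rfl⟩ := QuotientGroup.mk'_surjective _ x
  rw [act_mk, MulAut.conj_apply, ← map_inv, ← map_mul, ← map_mul]
  rfl

theorem act_ker (hL : ⁅L, L⁆ = L) (hZ : Z ≤ center L) :
    (act Z).ker.map (normalizer (L : Set G)).subtype ≤ centralizer (L : Set G) := by
  refine commutator_eq_bot_iff_le_centralizer.1 (H14.commutator_eq_bot_of_perfect hL
    (commutator_eq_bot_iff_le_centralizer.2 (commutator_le.2 ?_)))
  rintro _ ⟨m, hm, rfl⟩ l hl
  have h2 : act Z m (QuotientGroup.mk' Z ⟨l, hl⟩) = QuotientGroup.mk' Z ⟨l, hl⟩ := by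
    rw [MonoidHom.mem_ker.1 hm]; rfl
  rw [act_mk, ← mul_inv_eq_one, ← map_inv, ← map_mul, ← MonoidHom.mem_ker, QuotientGroup.ker_mk'] at h2
  intro y hy
  exact congrArg Subtype.val (mem_center_iff.1 (hZ h2) ⟨y, hy⟩)

theorem exists_out (hL : ⁅L, L⁆ = L) (hZ : Z ≤ center L) :
    ∃ φ : normalizer (L : Set G) →* Out (L ⧸ Z),
      ∀ n, φ n = 1 ↔ (n : G) ∈ L ⊔ centralizer (L : Set G) := by
  refine ⟨(QuotientGroup.mk' _).comp (act Z), fun n => ?_⟩
  rw [MonoidHom.comp_apply, ← MonoidHom.mem_ker, QuotientGroup.ker_mk']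
  constructor
  · rintro ⟨t, ht⟩
    obtain ⟨t, rfl⟩ := QuotientGroup.mk'_surjective _ t
    have h2 : act Z ((⟨t, le_normalizer t.2⟩ : normalizer (L : Set G))⁻¹ * n) = 1 := by
      rw [map_mul, map_inv, act_of_mem, ht, inv_mul_cancel]
    have := mul_mem_sup t.2 (act_ker Z hL hZ ⟨_, h2, rfl⟩)
    simpa using this
  · intro hn
    obtain ⟨l, hl, c, hc, e⟩ := H14.mem_sup_of_commutator_eq_bot (H14.commutator_eq_bot_symm
      (commutator_eq_bot_iff_le_centralizer.2 le_rfl)) hn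
    have hc' := centralizer_le_normalizer _ hc
    have e' : n = ⟨l, le_normalizer hl⟩ * ⟨c, hc'⟩ := Subtype.ext e.symm
    have h1 : act Z ⟨c, hc'⟩ = 1 := by
      ext x
      obtain ⟨x, rfl⟩ := QuotientGroup.mk'_surjective _ x
      rw [act_mk, MulAut.one_apply]
      congr 1
      exact Subtype.ext (mul_inv_eq_iff_eq_mul.2 (hc x x.2).symm)
    rw [e', map_mul, h1, mul_one, act_of_mem Z ⟨l, hl⟩]
    exact ⟨_, rfl⟩

end Act

variable {Y : Type u} [Group Y] [Finite Y] {p : ℕ} [hp : Fact p.Prime] {S P : Subgroup Y}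

theorem not_dvd_of_central (h2 : p ≠ 2) {K : Subgroup Y} (hK : ⁅K, K⁆ = K)
    (h : ∀ x ∈ K, x ^ p = 1 → x ∈ centralizer (K : Set Y)) : ¬ p ∣ Nat.card K := by
  have h1 := H7.hasNPC_of_omega_le_upperCentralSeries (G := K) (p := p) 1 fun a ha => by
    rw [Subgroup.upperCentralSeries_one, mem_center_iff]
    intro g
    exact Subtype.ext (h a a.2 (by simpa using congrArg Subtype.val (ha.resolve_right fun k => h2 k.1)) g g.2)
  rw [← H48.isPGroup_quotient_pPrimeCore_iff, isPGroup_quotient_iff_res_le, ← res_subgroupOf,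
    res_eq_self_of_perfect hK, subgroupOf_self, top_le_iff, H2.pPrimeCore_eq_top_iff] at h1
  exact (Nat.Prime.coprime_iff_not_dvd hp.out).1 h1.symm

theorem PD.le_cent_of_le_sup (h : PD p S P) (h2 : p ≠ 2) (hr : PRankLE p 2 Y) {K : Subgroup Y} [K.Normal]
    (hK : ⁅K, K⁆ = K) (hle : P ≤ K ⊔ centralizer (K : Set Y)) (hn : ¬ P ≤ K) :
    P ≤ centralizer (K : Set Y) := by
  obtain ⟨Q, hQ⟩ := exists_isSyl p (centralizer (K : Set Y))
  have hnc : ¬ IsCyclic Q := fun k => by
    let π := QuotientGroup.mk' K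
    have h1 : P.map π ≤ (centralizer (K : Set Y)).map π := by
      refine (map_mono hle).trans_eq ?_
      rw [Subgroup.map_sup, (Subgroup.map_eq_bot_iff _).2 (QuotientGroup.ker_mk' K).ge, bot_sup_eq]
    obtain ⟨g, -, hg⟩ := (hQ.map π).exists_cj_le (h.isPGroup.map π) h1
    have h3 : IsCyclic (Q.map π) := isCyclic_of_surjective _ (π.subgroupMap_surjective Q)
    have h4 : IsCyclic (cj g (P.map π)) := Subgroup.isCyclic_of_le hg
    have h5 : IsCyclic (P.map π) := isCyclic_of_surjective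
      ((P.map π).equivMapOfInjective (MulAut.conj g).toMonoidHom (MulAut.conj g).injective).symm (MulEquiv.surjective _)
    exact hn ((h.le_ker π h5).trans_eq (QuotientGroup.ker_mk' K))
  obtain ⟨E, -, hE, hEc⟩ := H48.exists_normal_elemAb_sq h2 hQ.isPGroup hnc
  have hE' := ea_map Q.subtype hE
  rw [← card_map_of_injective Q.subtype_injective] at hEc
  have hEC := (map_subtype_le E).trans hQ.le
  have hd := not_dvd_of_central h2 hK fun x hx hxp =>
    hEC (mem_of_cent h2 hr hE'.2 hEc.ge hxp fun y hy => (hEC hy x hx).symm)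
  intro x hx
  obtain ⟨k, hk, c, hc, rfl⟩ := H14.mem_sup_of_commutator_eq_bot (H14.commutator_eq_bot_symm
      (commutator_eq_bot_iff_le_centralizer.2 le_rfl)) (hle hx)
  refine mem_of_pow_mem_of_coprime (n := Nat.card K) ?_ (Nat.Coprime.coprime_dvd_left
    (orderOf_dvd_of_pow_eq_one (h.exp _ hx)) ((Nat.Prime.coprime_iff_not_dvd hp.out).2 hd))
  rw [Commute.mul_pow (hc k hk), show k ^ Nat.card K = 1 from
    congrArg Subtype.val (pow_card_eq_one' (x := (⟨k, hk⟩ : K))), one_mul]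
  exact pow_mem hc _

theorem der_le_cent (hO : pCore 2 Y = ⊥) (hq : IsStronglyQuasithin Y) {K : Subgroup Y} [K.Normal]
    (hP : IsPGroup p P) (h2 : p ≠ 2) (hK : ¬ p ∣ Nat.card K) : ⁅P, P⁆ ≤ centralizer (K : Set Y) := by
  have hs : Group.IsSolvable P := by have := hP.isNilpotent; infer_instance
  obtain ⟨n, hn⟩ := IsPGroup.iff_card.1 hP
  have hcop : (Nat.card P).Coprime (Nat.card K) :=
    hn ▸ ((Nat.Prime.coprime_iff_not_dvd hp.out).2 hK).pow_left n
  have inv : ∀ (q : ℕ) [Fact q.Prime], ∃ R, IsSyl q R K ∧ P ≤ normalizer (R : Set Y) := fun q _ => by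
    obtain ⟨R, hR⟩ := H1.exists_invariant_sylow_subgroup P K le_normalizer_of_normal hcop (Or.inl hs) q
    exact ⟨_, isSyl_map_subtype R, hR⟩
  obtain ⟨T, hT, hPT⟩ := inv 2
  have hD := commutator_le_self P
  have hc : (T.relIndex K).Coprime ((centralizer (⁅P, P⁆ : Subgroup Y)).relIndex K) := by
    refine Nat.coprime_of_dvd fun q hq1 h1 h3 => ?_
    have := Fact.mk hq1
    obtain ⟨R, hR, hPR⟩ := inv q
    refine hR.not_dvd_relIndex (h3.trans (relIndex_dvd_of_le_left K (le_centralizer_iff.1 fun z hz => ?_)))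
    have hq2 : q ≠ 2 := fun e => hT.not_dvd_relIndex (e ▸ h1)
    obtain ⟨k, hk⟩ := H48.exists_pow_pow_mem_centralizer hq2 hR.isPGroup
      (H48.pRankLE_subgroup (hq q hq1 hq2) R) hPR (hn ▸ (hp.out.odd_of_ne_two h2).pow) hz
    refine mem_of_pow_mem_of_coprime hk (Nat.Coprime.coprime_dvd_left (orderOf_dvd_natCard P (hD hz)) ?_)
    exact (hcop.coprime_dvd_right (h1.trans (relIndex_dvd_card _ _))).pow_right k
  have hU : ⁅K, ⁅P, P⁆⁆ ≤ T := commutator_le.2 fun r hr y hy => by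
    obtain ⟨s, hs, c, hc, rfl⟩ := H4.exists_mul_of_coprime_relIndex hc hr
    have h1 := T.mul_mem hs.1 (conj_mem_of_mem_normalizer (hPT (hD hy)) (T.inv_mem hs.1))
    convert h1 using 1
    calc _ = s * (c * y) * c⁻¹ * s⁻¹ * y⁻¹ := by rw [commutatorElement_def]; group
      _ = _ := by rw [← mem_centralizer_iff.1 hc.1 y hy]; group
  have h3 : ⁅K, ⁅P, P⁆⁆ ≤ pCoreOf 2 K := le_pCoreOf (hT.isPGroup.to_le hU) (hU.trans hT.le)
    (H1.le_normalizer_commutator_left _ _)
  have h4 : pCoreOf 2 K ≤ pCoreOf 2 ⊤ := pCoreOf_le_pCoreOf_of_normal le_top le_normalizer_of_normal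
  rw [pCoreOf_top, hO] at h4
  exact commutator_eq_bot_iff_le_centralizer.1 (H14.commutator_eq_bot_symm (eq_bot_iff.2 (h3.trans h4)))

theorem PD.le_ker_out (h : PD p S P) (h2 : p ≠ 2) (hO : pCore 2 Y = ⊥) (hq : IsStronglyQuasithin Y)
    {K : Subgroup Y} [K.Normal] {O : Type*} [Group O] (φ : Y →* O)
    (hφ : φ.ker = K ⊔ centralizer (K : Set Y)) (ok : OutOK O) : P ≤ φ.ker := by
  refine (h.le_or le_normalizer_of_normal).resolve_left fun k => ?_
  by_cases hz : ⁅P, P⁆ ≤ φ.ker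
  · have e : φ.ker ⊓ P = ⁅P, P⁆ := le_antisymm (inf_comm P _ ▸ k) (le_inf hz (commutator_le_self P))
    have hc := H4.card_inf_mul_relIndex φ.ker P
    rw [e, relIndex_ker] at hc
    have hA : Nat.card (P.map φ) = p ^ 2 := by
      rcases h.card with ⟨h1, h3⟩ | ⟨h1, h3⟩
      · rwa [h3, card_bot, one_mul, h1] at hc
      · have h4 := H9.mul_card_le_of_lt h.isPGroup (H := ⊥) (K := commutator P) (bot_lt_iff_ne_bot.2
          fun e => h3 (by rw [← map_subtype_commutator, e, Subgroup.map_bot]))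
        rw [card_bot, mul_one, ← card_map_of_injective P.subtype_injective, map_subtype_commutator] at h4
        rw [le_antisymm h.der.1 h4, h1, pow_succ'] at hc
        exact Nat.eq_of_mul_eq_mul_left hp.out.pos hc
    obtain ⟨A, hA1, hA2, hA3⟩ := ok.2 p hp.out h2 (P.map φ) ⟨H9.isMulCommutative_iff_forall.2
      (H14.commutator_eq_bot_iff_comm.1 (by rw [← map_commutator, Subgroup.map_eq_bot_iff]; exact hz)), by
        rintro _ ⟨x, hx, rfl⟩; rw [← map_pow, h.exp x hx, map_one]⟩ hA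
    have h1 := hp.out.one_lt
    rcases h.le_or (C := A.comap φ) ((map_le_iff_le_comap.1 (((map_mono h.nor).trans
      (le_normalizer_map φ)).trans hA3)).trans (le_normalizer_comap φ)) with k' | k'
    · have : A = ⊥ := eq_bot_iff.2 fun a ha => by
        obtain ⟨x, hx, rfl⟩ := hA1 ha
        exact hz (k' ⟨hx, ha⟩)
      rw [this, card_bot] at hA2
      omega
    · have : Finite A := Nat.finite_of_card_ne_zero (by omega)
      have := card_le_of_le (map_le_iff_le_comap.2 k')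
      rw [hA, hA2] at this
      nlinarith
  · refine hz (le_trans (der_le_cent hO hq h.isPGroup h2 fun hd => ?_) (hφ ▸ le_sup_right))
    have hb : P ⊓ φ.ker = ⊥ := by
      by_contra hb
      have h4 := H9.mul_card_le_of_lt h.isPGroup (H := ⊥) (K := φ.ker.subgroupOf P) (bot_lt_iff_ne_bot.2
        fun e => hb (by rw [inf_comm, ← subgroupOf_map_subtype, e, Subgroup.map_bot]))
      rw [card_bot, mul_one, ← card_map_of_injective P.subtype_injective, subgroupOf_map_subtype,
        inf_comm] at h4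
      exact hz ((eq_of_le_of_card_ge k (h.der.1.trans h4)).ge.trans inf_le_right)
    obtain ⟨Q, hQ, hPQ⟩ := exists_isSyl_le h.isPGroup (le_top : P ≤ ⊤)
    have h5 : Q ⊓ K ≠ ⊥ := fun e =>
      (hQ.inf_of_le_normalizer le_top le_normalizer_of_normal).eq_bot_iff.1 e hd
    obtain ⟨z, hz1, hz2, hz3⟩ := H9.exists_mem_center_orderOf_eq hQ.isPGroup (K := K.subgroupOf Q)
      fun e => h5 (by rw [inf_comm, ← subgroupOf_map_subtype, e, Subgroup.map_bot])
    have h6 : (z : Y) ∈ P := mem_of_cent h2 (hq p hp.out h2) h.exp h.sq_le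
      (by rw [← coe_pow, ← hz3, pow_orderOf_eq_one, coe_one])
      fun y hy => congrArg Subtype.val (mem_center_iff.1 hz2 ⟨y, hPQ hy⟩)
    have h7 : (z : Y) ∈ P ⊓ φ.ker := mem_inf.2 ⟨h6, hφ ▸ mem_sup_left hz1⟩
    rw [hb, mem_bot, OneMemClass.coe_eq_one] at h7
    rw [h7, orderOf_one] at hz3
    exact hp.out.one_lt.ne hz3

theorem PD.le_of_index_two (h : PD p S P) (h2 : p ≠ 2) {N C : Subgroup Y} [C.Normal] (hN : N.index = 2)
    (hC : ⁅N, N⁆ ≤ C) : P ≤ C := by
  refine (h.le_or le_normalizer_of_normal).resolve_left fun k => ?_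
  have hPN : P ≤ N := fun x hx => mem_of_pow_mem_of_coprime (sq_mem_of_index_two hN x)
    (Nat.Coprime.coprime_dvd_left (orderOf_dvd_of_pow_eq_one (h.exp _ hx))
      ((Nat.coprime_primes hp.out Nat.prime_two).2 h2))
  have hD := commutator_le_self P
  have hSZ : S ≤ normalizer ((⁅P, P⁆ : Subgroup Y) : Set Y) := le_normalizer_commutator h.nor h.nor
  have h1 : ∀ s ∈ S, s ∈ N → ∀ x ∈ P, s * x * s⁻¹ * x⁻¹ ∈ ⁅P, P⁆ := fun s hs hn x hx =>
    k (mem_inf.2 ⟨P.mul_mem (conj_mem_of_mem_normalizer (h.nor hs) hx) (P.inv_mem hx),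
      hC (commutator_mem_commutator hn (hPN hx))⟩)
  have key : ∀ y ∈ P, y ∉ ⁅P, P⁆ → ¬ ∀ s ∈ S, s * y * s⁻¹ ∈ zpowers y ⊔ ⁅P, P⁆ := fun y hy hy' hs => by
    rcases h.irr (zpowers y ⊔ ⁅P, P⁆) (sup_le (zpowers_le.2 hy) hD) (fun s hs' => mem_normalizer_of_cj_le (by
      rw [cj_sup, cj_eq_self (hSZ hs')]
      refine sup_le ?_ le_sup_right
      rw [cj, MonoidHom.map_zpowers, zpowers_le]
      exact hs s hs')) with k' | k'
    · exact hy' (k' (mem_sup_left (mem_zpowers y)))
    · exact h.ncyc hy k'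
  have h3 : ∀ y ∈ P, ∀ s ∈ S, s ∈ N → s * y * s⁻¹ ∈ zpowers y ⊔ ⁅P, P⁆ := fun y hy s hs hn => by
    have := mul_mem (mem_sup_right (h1 s hs hn y hy)) (mem_sup_left (S := zpowers y) (mem_zpowers y))
    rwa [inv_mul_cancel_right] at this
  have h4 : ∀ y ∈ P, ∀ t ∈ S, t ∉ N → t * y * t⁻¹ ∈ zpowers y ⊔ ⁅P, P⁆ →
      ∀ s ∈ S, s * y * s⁻¹ ∈ zpowers y ⊔ ⁅P, P⁆ := fun y hy t ht htN hty s hs => by
    by_cases hn : s ∈ N
    · exact h3 y hy s hs hn
    have hn' : s * t⁻¹ ∈ N := by rw [mul_mem_iff_of_index_two hN, inv_mem_iff]; simp [hn, htN]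
    have := mul_mem (mem_sup_right (h1 _ (S.mul_mem hs (S.inv_mem ht)) hn' _
      (conj_mem_of_mem_normalizer (h.nor ht) hy))) hty
    convert this using 1
    group
  obtain ⟨x, hx, hx'⟩ : ∃ x ∈ P, x ∉ ⁅P, P⁆ := by
    by_contra! k'
    exact h.ncyc P.one_mem (le_trans k' le_sup_right)
  by_cases hS : S ≤ N
  · exact key x hx hx' fun s hs => h3 x hx s hs (hS hs)
  obtain ⟨t, ht, htN⟩ := SetLike.not_le_iff_exists.1 hS
  have hx1 := conj_mem_of_mem_normalizer (h.nor ht) hx
  by_cases hy : x * (t * x * t⁻¹) ∈ ⁅P, P⁆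
  · refine key x hx hx' (h4 x hx t ht htN ?_)
    have := mul_mem (mem_sup_left (S := zpowers x) (inv_mem (mem_zpowers x))) (mem_sup_right hy)
    rwa [inv_mul_cancel_left] at this
  · have hy1 := P.mul_mem hx hx1
    refine key _ hy1 hy (h4 _ hy1 t ht htN ?_)
    have a1 := h1 _ (S.mul_mem ht ht) (mul_self_mem_of_index_two hN t) x hx
    have a2 := conj_mem_of_mem_normalizer (le_normalizer_commutator le_normalizer le_normalizer hx1) a1
    have a3 := commutator_mem_commutator hx1 hx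
    have := mul_mem (mem_sup_right (mul_mem a2 a3))
      (mem_sup_left (S := zpowers (x * (t * x * t⁻¹))) (mem_zpowers _))
    convert this using 1
    rw [commutatorElement_def]
    group

omit [Finite Y] in
theorem comp_mem_calC {K : Subgroup Y} (hK : IsComponent K) : K ∈ calC Y := by
  refine ⟨H14.comp_ne_bot hK, H14.comp_perfect hK, hK.1, fun J hJ ⟨h1, h2, h3⟩ => ?_⟩
  rcases H14.comp_le_or_of_subnormal hK h3 with k | k
  · exact hJ.not_ge k
  · exact h1 (h2 ▸ H14.commutator_eq_bot_mono k hJ.le le_rfl)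

theorem comm_le_of_not_normal (kf : KF.{u}) (cs : CStruct.{u}) (hY : SQTK Y) {K : Subgroup Y}
    (hK : IsComponent K) (hn : ¬ K.Normal) : (normalizer (K : Set Y)).index = 2 ∧
      ⁅normalizer (K : Set Y), normalizer (K : Set Y)⁆ ≤ K ⊔ centralizer (K : Set Y) := by
  obtain ⟨h1, h2, h3⟩ := ((cs Y hY).2.2 K (comp_mem_calC hK)).resolve_left hn
  have hZ : pCore 2 K ≤ center K := (H14.quasi_normal hK.2 _).resolve_left fun e =>
    not_subsingleton _ (QuotientGroup.subsingleton_iff.2 e)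
  have hc : ¬ IsMulCommutative (K ⧸ pCore 2 K) := H14.quasi_not_comm
    (H14.quasi_of_surjective hK.2 _ (QuotientGroup.mk'_surjective _))
  have h4 := (kf.2.2 _ hc).1 h3
  obtain ⟨φ, hφ⟩ := exists_out (pCore 2 K) (H14.comp_perfect hK) hZ
  refine ⟨h1, commutator_le.2 fun a ha b hb => (hφ ⁅(⟨a, ha⟩ : normalizer (K : Set Y)), ⟨b, hb⟩⁆).1 ?_⟩
  rw [map_commutatorElement, commutatorElement_eq_one_iff_mul_comm]
  exact h4.is_comm.comm _ _

theorem PD.le_cent_comp (kf : KF.{u}) (cs : CStruct.{u}) (hY : SQTK Y) (hO : pCore 2 Y = ⊥)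
    (h : PD p S P) (h2 : p ≠ 2) {T K : Subgroup Y} (hT : IsSyl 2 T ⊤) (hK : IsComponent K)
    (star : ¬ P ≤ K ⊔ T) : P ≤ centralizer (K : Set Y) := by
  have hr := hY.1 p hp.out h2
  have hKp := H14.comp_perfect hK
  by_cases hn : K.Normal
  · refine h.le_cent_of_le_sup h2 hr hKp ?_ fun k => star (k.trans le_sup_left)
    obtain ⟨φ, hφ⟩ := exists_out (center K) hKp le_rfl
    have := hK.2.2
    have hc := H14.quasi_quotient_not_comm hK.2
    let ι : Y →* normalizer (K : Set Y) := (MonoidHom.id Y).codRestrict _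
      fun y => le_normalizer_of_normal (mem_top y)
    have e : (φ.comp ι).ker = K ⊔ centralizer (K : Set Y) := Subgroup.ext fun y => hφ (ι y)
    exact e ▸ h.le_ker_out h2 hO hY.1 _ e ((kf.2.2 _ hc).2 (kf.1 Y hY K _ this hc))
  obtain ⟨hN, hC⟩ := comm_le_of_not_normal kf cs hY hK hn
  obtain ⟨t, ht, htN⟩ : ∃ t ∈ T, t ∉ normalizer (K : Set Y) := by
    by_contra! k
    have := hT.not_dvd_relIndex
    rw [relIndex_top_right] at this
    exact this (hN ▸ index_dvd_of_le k)
  have hK' : IsComponent (cj t K) := H14.comp_map_conj hK t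
  have hne : K ≠ cj t K := fun e => htN (cj_eq_self_iff.1 e.symm)
  have hNn := normal_of_index_eq_two hN
  have eN : normalizer ((cj t K : Subgroup Y) : Set Y) = normalizer (K : Set Y) := by
    rw [← cj_normalizer, cj_eq_self_of_normal]
  obtain ⟨-, hC'⟩ := comm_le_of_not_normal kf cs hY hK' fun k => htN (by
    rw [← eN]; exact le_normalizer_of_normal (mem_top t))
  rw [eN] at hC'
  have hcm := H14.comp_commute_of_ne hK hK' hne
  have hcm' := H14.commutator_eq_bot_iff_comm.1 hcm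
  have h0 : (K ⊔ cj t K).Normal := normal_of_top_le_normalizer fun g _ => by
    have a1 : normalizer (K : Set Y) ≤ normalizer ((K ⊔ cj t K : Subgroup Y) : Set Y) :=
      le_normalizer_sup le_rfl eN.ge
    by_cases hg : g ∈ normalizer (K : Set Y)
    · exact a1 hg
    have a2 : t ∈ normalizer ((K ⊔ cj t K : Subgroup Y) : Set Y) := by
      rw [← cj_eq_self_iff, cj_sup, cj_cj, cj_eq_self (mul_self_mem_of_index_two hN t), sup_comm]
    have a3 : g * t⁻¹ ∈ normalizer (K : Set Y) := by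
      rw [mul_mem_iff_of_index_two hN, inv_mem_iff]; simp [hg, htN]
    simpa using mul_mem (a1 a3) a2
  have hp0 : ⁅K ⊔ cj t K, K ⊔ cj t K⁆ = K ⊔ cj t K := le_antisymm (commutator_le_self _) (sup_le
    (hKp.ge.trans (commutator_mono le_sup_left le_sup_left))
    ((H14.comp_perfect hK').ge.trans (commutator_mono le_sup_right le_sup_right)))
  refine (h.le_cent_of_le_sup h2 hr hp0 (h.le_of_index_two h2 hN fun g hg => ?_)
    fun k => star (k.trans (sup_le le_sup_left (cj_le_of_le_of_mem le_sup_left (mem_sup_right ht))))).trans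
    (centralizer_le (SetLike.coe_subset_coe.2 le_sup_left))
  obtain ⟨k, hk, c, hc, e⟩ := H14.mem_sup_of_commutator_eq_bot (H14.commutator_eq_bot_symm
    (commutator_eq_bot_iff_le_centralizer.2 le_rfl)) (hC hg)
  obtain ⟨k', hk', c', hc', e'⟩ := H14.mem_sup_of_commutator_eq_bot (H14.commutator_eq_bot_symm
    (commutator_eq_bot_iff_le_centralizer.2 le_rfl)) (hC' hg)
  have b1 : k'⁻¹ * c ∈ centralizer (K : Set Y) :=
    mul_mem (inv_mem (mem_centralizer_iff.2 fun y hy => hcm' y hy k' hk')) hc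
  have b2 : k'⁻¹ * c ∈ centralizer ((cj t K : Subgroup Y) : Set Y) := by
    have : k'⁻¹ * c = k⁻¹ * c' := by
      rw [← inv_mul_cancel_left k c, e, ← e', ← mul_assoc, ← mul_assoc, ← mul_inv_rev, hcm' k hk k' hk']
      group
    exact this ▸ mul_mem (inv_mem (mem_centralizer_iff.2 fun y hy => (hcm' k hk y hy).symm)) hc'
  have b3 : k'⁻¹ * c ∈ centralizer ((K ⊔ cj t K : Subgroup Y) : Set Y) := by
    have := le_centralizer_iff.1 (sup_le (le_centralizer_iff.1 (zpowers_le.2 b1))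
      (le_centralizer_iff.1 (zpowers_le.2 b2)))
    exact this (mem_zpowers _)
  have := mul_mem_sup (mul_mem_sup hk hk') b3
  rwa [mul_assoc, mul_inv_cancel_left, e] at this

end H18.QT
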