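import Cfsg.Agent.H18.QTXi2

/-! Quasithin tower, `JobXi`, part 3: `P` is normal when `O₂ = 1`. -/

set_option autoImplicit false

namespace H18.QT

open Cfsg Subgroup H98 H97.QT
open scoped commutatorElement

universe u

variable {Y : Type u} [Group Y] [Finite Y] {p : ℕ} [hp : Fact p.Prime] {S P : Subgroup Y}

theorem PD.le_pCore (h : PD p S P) (h2 : p ≠ 2) (hO : pCore 2 Y = ⊥) (hq : IsStronglyQuasithin Y)
    (hE : P ≤ centralizer (layer Y : Set Y)) : P ≤ pCore p Y := by
  obtain ⟨C, hCn, hPC, hC⟩ := h.cent_rank h2 h2 (pCore p Y) (H2.pCore_isPGroup p Y)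
    (H48.pRankLE_subgroup (hq p hp.out h2) _)
  let D : Subgroup Y := ⨆ r : {r : Nat.Primes // (r : ℕ) ≠ p}, pCore (r.1 : ℕ) Y
  have hDn : D.Normal := normal_of_top_le_normalizer (le_normalizer_iSup fun _ => le_normalizer_of_normal)
  have hPD : P ≤ centralizer (D : Set Y) := le_centralizer_iff.1 (iSup_le fun r => by
    by_cases hr : (r.1 : ℕ) = 2
    · rw [hr, hO]; exact bot_le
    have := Fact.mk r.1.2
    obtain ⟨C', -, h1, h3⟩ := h.cent_rank h2 hr (pCore r.1 Y) (H2.pCore_isPGroup _ Y)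
      (H48.pRankLE_subgroup (hq _ r.1.2 hr) _)
    exact le_centralizer_iff.1 fun x hx => h3 x (h1 hx) (Nat.Coprime.coprime_dvd_left
      (orderOf_dvd_of_pow_eq_one (h.exp x hx)) ((Nat.coprime_primes hp.out r.1.2).2 r.2.symm)))
  let N := C ⊓ (centralizer (layer Y : Set Y) ⊓ centralizer (D : Set Y))
  have hres : res p N ≤ D := res_le_of_forall_prime fun q hq1 hqp x hx ⟨k, hk⟩ => by
    have := Fact.mk hq1
    have h1 := hC x hx.1 (Nat.Coprime.coprime_dvd_left (orderOf_dvd_of_pow_eq_one hk)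
      (((Nat.coprime_primes hq1 hp.out).2 hqp).pow_left k))
    have h3 : zpowers x ≤ fittingSubgroup Y := H14.le_fitting_of_commutator_fstar
      (commutator_eq_bot_iff_le_centralizer.2 (zpowers_le.2 hx.2.1))
      (commutator_eq_bot_iff_le_centralizer.2 (le_centralizer_iff.1 (by
        rw [H2.fitting_eq_iSup_pCore]
        refine iSup_le fun r => ?_
        by_cases hr : (r : ℕ) = p
        · rw [hr]; exact le_centralizer_iff.1 (zpowers_le.2 h1)
        · exact (le_iSup (fun r : {r : Nat.Primes // (r : ℕ) ≠ p} => pCore (r.1 : ℕ) Y) ⟨r, hr⟩).trans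
            (le_centralizer_iff.1 (zpowers_le.2 hx.2.2)))))
    exact le_iSup (fun r : {r : Nat.Primes // (r : ℕ) ≠ p} => pCore (r.1 : ℕ) Y) ⟨⟨q, hq1⟩, hqp⟩
      (H2.le_pCore_of_le_fitting (isPGroup_zpowers hk) h3 (mem_zpowers x))
  obtain ⟨Q, hQ, hPQ⟩ := exists_isSyl_le h.isPGroup (le_inf hPC (le_inf hE hPD) : P ≤ N)
  have h4 : N ≤ normalizer (Q : Set Y) := hQ.sup_res.ge.trans (sup_le le_normalizer
    (le_normalizer_of_le_centralizer (hres.trans (le_centralizer_iff.1
      (hQ.le.trans (inf_le_right.trans inf_le_right))))))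
  have h5 : pCoreOf p N ≤ pCoreOf p ⊤ := pCoreOf_le_pCoreOf_of_normal le_top le_normalizer_of_normal
  rw [pCoreOf_top] at h5
  exact hPQ.trans ((hQ.eq_pCoreOf h4).le.trans h5)

theorem PD.normal_of_le (h : PD p S P) (h2 : p ≠ 2) (hr : PRankLE p 2 Y) {Q : Subgroup Y} [Q.Normal]
    (hQ : IsPGroup p Q) (hPQ : P ≤ Q) : P.Normal := by
  have h1 := hp.out.one_lt
  let Z := omegaOne p (Q ⊓ centralizer (Q : Set Y))
  have hZQ : Z ≤ Q ⊓ centralizer (Q : Set Y) := H48.omegaOne_le' _
  have hZ : Z ≤ P := (closure_le _).2 fun x hx =>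
    mem_of_cent h2 hr h.exp h.sq_le hx.2 (centralizer_le (SetLike.coe_subset_coe.2 hPQ) hx.1.2)
  rcases h.irr Z hZ le_normalizer_of_normal with k | k
  swap
  · exact le_antisymm hZ k ▸ inferInstance
  have hZp : Nat.card Z ≤ p := (card_le_of_le k).trans h.der.1
  have hc : Nat.card P = p ^ 3 := by
    refine (h.card.resolve_left fun ⟨_, h3⟩ => ?_).1
    obtain ⟨z, -, hz2, hz3⟩ := H9.exists_mem_center_orderOf_eq hQ (K := ⊤) fun e => by
      have := (h.sq_le.trans (card_le_of_le hPQ)).trans_eq (card_top (G := Q)).symm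
      rw [e, card_bot] at this
      nlinarith
    have : (z : Y) ∈ Z := H48.mem_omegaOne' ⟨z.2, fun y hy => congrArg Subtype.val
      (mem_center_iff.1 hz2 ⟨y, hy⟩)⟩ (by rw [← coe_pow, ← hz3, pow_orderOf_eq_one, coe_one])
    have := k this
    rw [h3, mem_bot, OneMemClass.coe_eq_one] at this
    rw [this, orderOf_one] at hz3
    omega
  let W := closure {w : Y | w ∈ Q ∧ w ^ p = 1 ∧ ∀ q ∈ Q, ⁅w, q⁆ ∈ Z}
  have hWn : W.Normal := normal_of_top_le_normalizer fun g _ => mem_normalizer_of_cj_le (by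
    rw [cj, MonoidHom.map_closure, closure_le]
    rintro _ ⟨w, ⟨a1, a2, a3⟩, rfl⟩
    refine subset_closure ⟨Normal.conj_mem inferInstance w a1 g, by rw [← map_pow, a2, map_one], fun q hq => ?_⟩
    have := Normal.conj_mem (inferInstance : Z.Normal) _
      (a3 _ (Normal.conj_mem' (inferInstance : Q.Normal) q hq g)) g
    convert this using 1
    simp only [commutatorElement_def, MulEquiv.toMonoidHom_eq_coe, MonoidHom.coe_coe, MulAut.conj_apply]
    group)
  have hWP : W ≤ P := (closure_le _).2 fun w ⟨a1, a2, a3⟩ => by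
    have b1 := H48.index_centralizer_singleton_dvd (G := Q) (a := ⟨w, a1⟩) (Z := Z.subgroupOf Q)
      (fun z hz => mem_center_iff.2 fun g => Subtype.ext ((hZQ hz).2 g g.2)) fun g => a3 g g.2
    rw [Nat.card_congr (subgroupOfEquivOfLe (hZQ.trans inf_le_left)).toEquiv] at b1
    have b2 : centralizer {(⟨w, a1⟩ : Q)} = (centralizer {w}).subgroupOf Q := by
      ext g
      rw [mem_subgroupOf, mem_centralizer_singleton_iff, mem_centralizer_singleton_iff, Subtype.ext_iff]
      rfl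
    rw [b2] at b1
    have b3 : (centralizer {w}).relIndex P ≤ p :=
      ((relIndex_le_of_le_right hPQ (index_ne_zero_of_finite)).trans (Nat.le_of_dvd Nat.card_pos b1)).trans hZp
    have b4 := H4.card_inf_mul_relIndex (centralizer {w}) P
    have b5 : p ^ 2 ≤ Nat.card ↥(centralizer {w} ⊓ P) := by
      refine Nat.le_of_mul_le_mul_right (c := p) ?_ hp.out.pos
      rw [← pow_succ, ← hc, ← b4]
      exact Nat.mul_le_mul_left _ b3
    exact (mem_inf.1 (mem_of_cent h2 hr (fun x hx => h.exp x (mem_inf.1 hx).2) b5 a2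
      fun y hy => mem_centralizer_singleton_iff.1 hy.1)).2
  rcases h.irr W hWP le_normalizer_of_normal with k' | k'
  swap
  · exact le_antisymm hWP k' ▸ hWn
  exfalso
  have hnc : ¬ IsCyclic Q := fun c => by
    have := H48.card_le_of_cyclic_of_exponent' (Subgroup.isCyclic_of_le hPQ) hp.out.pos h.exp
    have := h.sq_le
    nlinarith
  obtain ⟨A, hAn, hA, hAc⟩ := H48.exists_normal_elemAb_sq h2 hQ hnc
  have b1 := H48.commutator_commutator_top_eq_bot_of_card_le hQ A hAc.le
  have b2 : A.map Q.subtype ≤ W := by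
    rintro _ ⟨a, ha, rfl⟩
    refine subset_closure ⟨a.2, congrArg Subtype.val (hA.2 a ha), fun q hq => ?_⟩
    have c1 := commutator_mem_commutator ha (mem_top (⟨q, hq⟩ : Q))
    exact H48.mem_omegaOne' (x := ((⁅a, (⟨q, hq⟩ : Q)⁆ : Q) : Y)) (mem_inf.2 ⟨Subtype.prop _, fun y hy =>
      (congrArg Subtype.val (H14.commutator_eq_bot_iff_comm.1 b1 _ c1 ⟨y, hy⟩ (mem_top _))).symm⟩)
      (congrArg Subtype.val (hA.2 _ (commutator_le_left A ⊤ c1)))
  have := (card_le_of_le (b2.trans k')).trans h.der.1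
  rw [card_map_of_injective Q.subtype_injective, hAc] at this
  nlinarith

theorem PD.normal (kf : KF.{u}) (cs : CStruct.{u}) (hY : SQTK Y) (hO : pCore 2 Y = ⊥)
    (h : PD p S P) (h2 : p ≠ 2) {T : Subgroup Y} (hT : IsSyl 2 T ⊤)
    (star : ∀ K : Subgroup Y, IsComponent K → ¬ P ≤ K ⊔ T) : P.Normal :=
  h.normal_of_le h2 (hY.1 p hp.out h2) (H2.pCore_isPGroup p Y) (h.le_pCore h2 hO hY.1
    (le_centralizer_iff.1 (H14.layer_le fun K hK =>
      le_centralizer_iff.1 (h.le_cent_comp kf cs hY hO h2 hT hK (star K hK)))))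

end H18.QT
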