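/- T3 tower (row S5228), slot Xb. -/
import Cfsg.Agent.H11.T3Spec

set_option autoImplicit false
set_option linter.unusedSectionVars false
set_option linter.unusedSimpArgs false
set_option linter.unusedVariables false
set_option linter.unnecessarySeqFocus false

open Subgroup H11.T3 H11.T3.Co
open H90.RF (cm Au Pr Ok cm_eq_one mem_nor le_nor conj_eq_cm)
open H90.U5 (Bq)

namespace H18.T3Xb

variable {E M : Subgroup Co} {s m : Co} {k : ℕ}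

theorem mem_of (h : Bq 3 zA k E M) (hs : ∀ m ∈ M, cm s m = 1) : s ∈ E :=
  (h.cen s).2 fun m hm => by rw [hs m hm]; exact one_mem _

theorem noC4 (h : Bq 3 zA k E M) (hE : E ≤ sE2) (hc : ∀ s ∈ E, ∀ m ∈ M, cm s m = 1) (hm : m ∈ M)
    (h4 : m ∈ sC4) : m.c = 0 := by
  by_contra h0
  obtain ⟨p0, p1, p2, p3⟩ := h4
  have hE4 : ∀ t ∈ E, t ∈ sC4 := fun t ht => by
    have tb : t.b = 0 := hE ht
    have e := hc t ht m hm
    have a0 : t.a = 0 := by simpa [cm_f, tb, p0, p1, h0] using congrArg Co.f e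
    exact ⟨tb, a0, by simpa [cm_g, tb, a0, p0, p1, p2, p3, h0] using congrArg Co.g e,
      by simpa [cm_h, tb, a0, p0, p1, p2, p3, h0] using congrArg Co.h e⟩
  have z4 : ∀ s ∈ sZ4, ∀ m ∈ sC4, cm s m = 1 := fun s ⟨q0, q1, q2, q3, q4, q5⟩ m ⟨r0, r1, r2, r3⟩ => by
    ext <;> simp [cm_b, cm_a, cm_d, cm_c, cm_e, cm_f, cm_g, cm_h, cm_i, cm_j, q0, q1, q2, q3, q4, q5, r0, r1,
      r2, r3]
  have hZ : sZ4 ≤ E := fun s hs => mem_of h fun m hm => z4 s hs m (hE4 m (h.ME hm))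
  have z5 : ∀ s ∈ sZ5, ∀ m ∈ sC4, cm s m ∈ sZ3 := fun s ⟨q0, q1, q2, q3⟩ m ⟨r0, r1, r2, r3⟩ => by
    simp [mem_sZ3, cm_b, cm_a, cm_d, cm_c, cm_e, cm_f, cm_g, q0, q1, q2, q3, r0, r1, r2, r3]
  have key : ∀ t ∈ E, t.c = 0 → t.f = 0 := fun t ht tc => by
    obtain ⟨q0, q1, q2, q3⟩ := hE4 t ht
    simpa [cm_j, q0, q1, q2, q3, tc, p0, p1, p2, p3, h0] using congrArg Co.j (hc t ht m hm)
  refine h.no2 (B := sZ5) (le_nor fun s hs c hc => hZ (Z3_le_Z4 (z5 s hs c (hE4 c hc))))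
    (fun x hx y hy m hm => ?_) (s := xf 1) ⟨rfl, rfl, rfl, rfl⟩ (fun e => one_ne_zero (key _ e rfl))
    (fun k l : ZMod 3 => xe k * xf l) xj (fun _ _ => by simp [mem_sZ5, xe, xf]) (fun x y x' y' e => ?_)
    fun m hm => ⟨-m.c, ?_⟩
  · obtain ⟨q0, q1, q2, q3⟩ := hx
    obtain ⟨r0, r1, r2, r3, r4, r5, r6⟩ := z5 y hy m (hE4 m (h.ME hm))
    rw [show cm x (cm y m) = 1 by
      ext <;> simp [cm_b x, cm_a x, cm_d x, cm_c x, cm_e x, cm_f x, cm_g x, cm_h x, cm_i x, cm_j x, q0, q1, q2,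
        q3, r0, r1, r2, r3, r4, r5, r6]]
    exact one_mem _
  · have e1 := (hE4 _ e).2.2.2
    have e2 := key _ e (by simp [xe, xf])
    simp [xe, xf] at e1 e2
    exact ⟨by linear_combination -e1, by linear_combination -e2⟩
  · obtain ⟨r0, r1, r2, r3⟩ := hE4 m (h.ME hm)
    rw [show cm (xf 1) m = xj (-m.c) by
      ext <;> simp [cm_b, cm_a, cm_d, cm_c, cm_e, cm_f, cm_g, cm_h, cm_i, cm_j, xf, xj, r0, r1, r2, r3],
      inv_mul_cancel]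
    exact one_mem _

theorem noK (h : Bq 3 zA k E M) (hE : E ≤ sE2) (hc : ∀ s ∈ E, ∀ m ∈ M, cm s m = 1) (hm : m ∈ M)
    (h4 : m ∈ sK) : m.a = 0 := by
  by_contra h0
  obtain ⟨p0, p1, p2, p3⟩ := h4
  have hE4 : ∀ t ∈ E, t ∈ sK := fun t ht => by
    have tb : t.b = 0 := hE ht
    have e := hc t ht m hm
    have c0 : t.c = 0 := by simpa [cm_f, tb, p0, p2, h0] using congrArg Co.f e
    have e1 := congrArg Co.g e
    simp only [cm_g, tb, c0, p0, p1, p2, p3, one_g] at e1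
    exact ⟨tb, by simpa [cm_h, tb, c0, p0, p1, p2, p3, h0] using congrArg Co.h e, c0,
      mul_right_cancel₀ h0 (by linear_combination e1)⟩
  have z4 : ∀ s ∈ sY, ∀ m ∈ sK, cm s m = 1 := fun s ⟨q0, q1, q2, q3, q4, q5⟩ m ⟨r0, r1, r2, r3⟩ => by
    ext <;> simp [cm_b, cm_a, cm_d, cm_c, cm_e, cm_f, cm_g, cm_h, cm_i, cm_j, q0, q1, q2, q3, q4, q5, r0, r1,
      r2, r3]
  have hZ : sY ≤ E := fun s hs => mem_of h fun m hm => z4 s hs m (hE4 m (h.ME hm))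
  have z5 : ∀ s ∈ sB, ∀ m ∈ sK, cm s m ∈ sY ∧ (cm s m).g = 0 :=
    fun s ⟨q0, q1, q2, q3⟩ m ⟨r0, r1, r2, r3⟩ => by
      simp [mem_sY, cm_b, cm_a, cm_d, cm_c, cm_e, cm_f, cm_g, cm_h, q0, q1, q2, q3, r0, r1, r2, r3]
  have key : ∀ t ∈ E, t.a = 0 → t.h = -t.f := fun t ht ta => by
    obtain ⟨q0, q1, q2, q3⟩ := hE4 t ht
    have e := congrArg Co.i (hc t ht m hm)
    simp only [cm_i, q0, q1, q2, q3, ta, p0, p1, p2, p3, one_i] at e
    exact mul_right_cancel₀ h0 (by linear_combination e)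
  refine h.no2 (B := sB) (le_nor fun s hs c hc => hZ (z5 s hs c (hE4 c hc)).1)
    (fun x hx y hy m hm => ?_) (s := xf 1) ⟨rfl, rfl, rfl, by simp [xf]⟩ (fun e => ?_)
    (fun k l : ZMod 3 => ⟨0, 0, k, -k, 0, l, 0, 0, 0, 0⟩) xi (fun _ _ => ⟨rfl, rfl, rfl, rfl⟩)
    (fun x y x' y' e => ?_) fun m hm => ⟨m.a, ?_⟩
  · obtain ⟨q0, q1, q2, q3⟩ := hx
    obtain ⟨⟨r0, r1, r2, r3, r4, r5⟩, r6⟩ := z5 y hy m (hE4 m (h.ME hm))
    rw [show cm x (cm y m) = 1 by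
      ext <;> simp [cm_b x, cm_a x, cm_d x, cm_c x, cm_e x, cm_f x, cm_g x, cm_h x, cm_i x, cm_j x, q0, q1, q2,
        q3, r0, r1, r2, r3, r4, r5, r6]]
    exact one_mem _
  · simpa [xf] using key _ e rfl
  · have e1 := (hE4 _ e).2.1
    have e2 := key _ e (by simp)
    simp at e1 e2
    exact ⟨by linear_combination -e1, by linear_combination -e2⟩
  · obtain ⟨r0, r1, r2, r3⟩ := hE4 m (h.ME hm)
    rw [show cm (xf 1) m = xi m.a by
      ext <;> simp [cm_b, cm_a, cm_d, cm_c, cm_e, cm_f, cm_g, cm_h, cm_i, cm_j, xf, xi, r0, r1, r2, r3],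
      inv_mul_cancel]
    exact one_mem _

theorem jobXb : JobXb := fun k _ E M h hE hc m hm h4 => by
  rcases h4 with h4 | h4
  · exact ⟨h4.1, h4.2.1, h4.2.2.1, noC4 h hE hc hm h4, h4.2.2.2⟩
  · have := noK h hE hc hm h4
    exact ⟨h4.1, this, h4.2.1, h4.2.2.1, by rw [h4.2.2.2, this, neg_zero]⟩

end H18.T3Xb
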